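import Cfsg.Agent.HallHigmanB.TopLayer
import Cfsg.Agent.PLengthProduct.Main

/-!
The bound of the `p`-length by the exponent.
-/

set_option autoImplicit false
set_option linter.style.haveILetI false

namespace CfsgLib.HallHigmanB

open CfsgLib.PCore CfsgLib.PLocalBasics

universe u

variable {p : ℕ} [hp : Fact p.Prime]

/-- The Sylow subgroups for the exceptional primes are abelian. -/
def ExceptionalAbelian (p : ℕ) (G : Type*) [Group G] : Prop :=
  ∀ n₀ q m : ℕ, 1 ≤ n₀ → q.Prime → 1 ≤ m → p ^ n₀ - 1 = q ^ m → ∀ Q : Sylow q G, IsMulCommutative (Q : Subgroup G)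

theorem exceptionalAbelian_quotient {G : Type u} [Group G] [Finite G] (h : ExceptionalAbelian p G) (N : Subgroup G)
    [N.Normal] : ExceptionalAbelian p (G ⧸ N) := by
  intro n₀ q m h1 hq h2 h3 Q
  haveI := Fact.mk hq
  obtain ⟨Q₀, rfl⟩ := Sylow.mapSurjective_surjective (QuotientGroup.mk'_surjective N) q Q
  haveI := h n₀ q m h1 hq h2 h3 Q₀
  rw [Sylow.coe_mapSurjective]
  exact Subgroup.map_isMulCommutative _ _

theorem exponent_quotient {G : Type u} [Group G] [Finite G] {e : ℕ}
    (h : ∀ (P : Sylow p G), ∀ x ∈ (P : Subgroup G), x ^ p ^ e = 1) (N : Subgroup G) [N.Normal]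
    (P : Sylow p (G ⧸ N)) : ∀ x ∈ (P : Subgroup (G ⧸ N)), x ^ p ^ e = 1 := by
  obtain ⟨P₀, rfl⟩ := Sylow.mapSurjective_surjective (QuotientGroup.mk'_surjective N) p P
  rintro _ ⟨x, hx, rfl⟩
  rw [← map_pow, h P₀ x hx, map_one]

theorem theorem_A : ∀ (e : ℕ) (G : Type u) [Group G] [Finite G], Cfsg.IsPSolvable p G →
    (∀ (P : Sylow p G), ∀ x ∈ (P : Subgroup G), x ^ p ^ e = 1) → ExceptionalAbelian p G → Cfsg.PLengthLE p e G := by
  intro e
  induction e with
  | zero =>
    intro G _ _ _ hexp _
    refine top_le_iff.1 ?_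
    rw [mul_zero, zero_add, upperPSeries_one]
    refine le_pPrimeCore_of_not_dvd inferInstance fun hd => ?_
    rw [Subgroup.card_top] at hd
    obtain ⟨x, hx⟩ := exists_prime_orderOf_dvd_card' p hd
    obtain ⟨P, hP⟩ := (IsPGroup.of_card (G := Subgroup.zpowers x) (n := 1)
      (by rw [Nat.card_zpowers, hx, pow_one])).exists_le_sylow
    have h1 := hexp P x (hP (Subgroup.mem_zpowers x))
    rw [pow_zero, pow_one] at h1
    rw [h1, orderOf_one] at hx
    exact hp.out.ne_one hx.symm
  | succ e IH =>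
    have core : ∀ (G : Type u) [Group G] [Finite G], Cfsg.IsPSolvable p G →
        (∀ (P : Sylow p G), ∀ x ∈ (P : Subgroup G), x ^ p ^ (e + 1) = 1) → ExceptionalAbelian p G →
        Cfsg.pPrimeCore p G = ⊥ → Cfsg.PLengthLE p (e + 1) G := by
      intro G _ _ hs hexp hC h0
      haveI hPn : (Cfsg.pCore p G).Normal := Cfsg.pCore_normal p G
      rw [add_comm e 1]
      refine CfsgLib.PLengthProduct.pLengthLE_add (Cfsg.pCore p G) ?_ (IH _ (isPSolvable_quotient hs _) ?_
        (exceptionalAbelian_quotient hC _))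
      · refine CfsgLib.PLengthProduct.le_upper_of_coprime_pow inferInstance fun x hx => ⟨1, Nat.coprime_one_left p, ?_⟩
        rw [pow_one]
        refine CfsgLib.PLengthProduct.le_upper_succ inferInstance (fun y hy => ?_) hx
        refine ⟨1, ?_, fun _ => Nat.coprime_one_left p, fun h => absurd (by decide) h⟩
        rw [pow_one]
        refine CfsgLib.PLengthProduct.le_upper_succ inferInstance (fun z hz => ?_) hy
        obtain ⟨k, hk⟩ := isPGroup_pCore p G ⟨z, hz⟩
        refine ⟨p ^ k, ?_, fun h => absurd h (by decide), fun _ => ⟨k, rfl⟩⟩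
        rw [show z ^ p ^ k = 1 from congrArg Subtype.val hk]
        exact one_mem _
      intro P
      obtain ⟨S, rfl⟩ := Sylow.mapSurjective_surjective (QuotientGroup.mk'_surjective (Cfsg.pCore p G)) p P
      rintro _ ⟨x, hx, rfl⟩
      by_contra hne
      have hn : orderOf (QuotientGroup.mk' (Cfsg.pCore p G) x) = p ^ (e + 1) :=
        orderOf_eq_prime_pow hne (by rw [← map_pow, hexp S x hx, map_one])
      obtain ⟨⟨n₀, q, m, h1, -, hq, h2, h3, h4⟩, -, -⟩ :=
        deficient hs h0 x (e + 1) hn e.succ_pos fun v hv => by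
          rw [hexp S _ (mul_mem (pCore_le_sylow S hv) hx), hexp S x hx, inv_one, mul_one]
          exact one_mem _
      haveI := Fact.mk hq
      exact h4 default (exceptionalAbelian_quotient hC _ n₀ q m h1 hq h2 h3 default)
    intro G _ _ hs hexp hC
    haveI : (Cfsg.pPrimeCore p G).Normal := Cfsg.pPrimeCore_normal p G
    rw [← zero_add (e + 1)]
    refine CfsgLib.PLengthProduct.pLengthLE_add (Cfsg.pPrimeCore p G) ?_ (core _ (isPSolvable_quotient hs _)
      (exponent_quotient hexp _) (exceptionalAbelian_quotient hC _) pPrimeCore_quotient)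
    rw [mul_zero, zero_add, upperPSeries_one]

end CfsgLib.HallHigmanB
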