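import Cfsg.Agent.HallHigmanB.InvariantGroup
import Cfsg.Agent.HallHigmanB.TheoremA
import Cfsg.Agent.CoprimeAction.Invariant

/-!
The exponent drops over two steps of the `p`-series for an odd prime.
-/

set_option autoImplicit false
set_option linter.style.haveILetI false

namespace CfsgLib.HallHigmanB

open CfsgLib.PCore CfsgLib.PLocalBasics

universe u

variable {p : ℕ} [hp : Fact p.Prime]

theorem pow_mem_pPrimePCore {G : Type u} [Group G] [Finite G] (hp2 : p ≠ 2) (hs : Cfsg.IsPSolvable p G)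
    (h0 : Cfsg.pPrimeCore p G = ⊥) (e : ℕ)
    (hexp : ∀ (P : Sylow p G), ∀ x ∈ (P : Subgroup G), x ^ p ^ (e + 1) = 1)
    (S : Sylow p (G ⧸ Cfsg.pCore p G)) (x : G ⧸ Cfsg.pCore p G) (hx : x ∈ (S : Subgroup (G ⧸ Cfsg.pCore p G))) :
    x ^ p ^ e ∈ Cfsg.pPrimePCore p (G ⧸ Cfsg.pCore p G) := by
  classical
  by_contra hxe
  haveI hPn : (Cfsg.pCore p G).Normal := Cfsg.pCore_normal p G
  let P := Cfsg.pCore p G
  have hexpS := exponent_quotient hexp P S
  haveI hNn : (Cfsg.pPrimeCore p (G ⧸ P)).Normal := Cfsg.pPrimeCore_normal p _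
  set N := Cfsg.pPrimeCore p (G ⧸ P) with hN
  haveI hUn : (Cfsg.pPrimePCore p (G ⧸ P)).Normal := pPrimePCore_normal p _
  set U₂ := Cfsg.pPrimePCore p (G ⧸ P) with hU₂
  set P₂ := U₂ ⊓ (S : Subgroup (G ⧸ P)) with hP₂
  have hsb : Cfsg.IsPSolvable p (G ⧸ P) := isPSolvable_quotient hs P
  -- the variants of `x`
  have hcoset : ∀ w ∈ U₂, ∀ i : ℕ, (w * x) ^ i * (x ^ i)⁻¹ ∈ U₂ := by
    intro w hw i
    refine (QuotientGroup.eq_one_iff _).1 ?_
    show QuotientGroup.mk' U₂ ((w * x) ^ i * (x ^ i)⁻¹) = 1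
    rw [map_mul, map_inv, map_pow, map_pow, map_mul,
      show QuotientGroup.mk' U₂ w = 1 from (QuotientGroup.eq_one_iff w).2 hw, one_mul, mul_inv_cancel]
  have hvar : ∀ w ∈ P₂, w * x ∈ (S : Subgroup (G ⧸ P)) ∧ (w * x) ^ p ^ e ∉ U₂ := by
    refine fun w hw => ⟨mul_mem hw.2 hx, fun h => hxe ?_⟩
    have h1 := U₂.mul_mem (U₂.inv_mem (hcoset w hw.1 (p ^ e))) h
    rwa [mul_inv_rev, inv_inv, inv_mul_cancel_right] at h1
  have hn : ∀ w ∈ P₂, (w * x) ^ p ^ e * (x ^ p ^ e)⁻¹ ∈ P₂ := fun w hw =>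
    ⟨hcoset w hw.1 _, (S : Subgroup (G ⧸ P)).mul_mem ((S : Subgroup (G ⧸ P)).pow_mem (hvar w hw).1 _) ((S : Subgroup (G ⧸ P)).inv_mem ((S : Subgroup (G ⧸ P)).pow_mem hx _))⟩
  -- the bottom layer
  have hab : ∀ w ∈ P₂, ∀ q : ℕ, q.Prime → q ≠ p → ∀ Q : Subgroup (G ⧸ P), IsPGroup q Q →
      (∀ a ∈ Q, ∀ b ∈ Q, a * b = b * a) → (∀ a ∈ Q, (w * x) * a * (w * x)⁻¹ ∈ Q) →
      (w * x) ^ p ^ e ∈ Subgroup.centralizer (Q : Set (G ⧸ P)) := by
    intro w hw q hq hqp Q hQ hQc hQn
    obtain ⟨hzS, hz⟩ := hvar w hw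
    obtain ⟨S₀, hS₀⟩ := Sylow.mapSurjective_surjective (QuotientGroup.mk'_surjective P) p S
    have hzS' : w * x ∈ (S₀ : Subgroup G).map (QuotientGroup.mk' P) := by
      rw [← Sylow.coe_mapSurjective (QuotientGroup.mk'_surjective P), hS₀]; exact hzS
    obtain ⟨g, hg, hgz⟩ := hzS'
    have hord : orderOf (QuotientGroup.mk' P g) = p ^ (e + 1) := by
      rw [hgz]
      exact orderOf_eq_prime_pow (fun h => hz (by rw [h]; exact one_mem _)) (hexpS _ hzS)
    obtain ⟨-, hB, -⟩ := deficient hs h0 g (e + 1) hord e.succ_pos fun v hv => by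
      rw [hexp S₀ _ (mul_mem (pCore_le_sylow S₀ hv) hg), hexp S₀ g hg, inv_one, mul_one]
      exact one_mem _
    by_contra hcen
    obtain ⟨n₀, m, -, -, -, -, hnab⟩ := hB q hq hqp Q hQ (by
        rw [hgz]
        refine Subgroup.mem_normalizer_iff.2 fun b => ⟨hQn b, fun hb => ?_⟩
        have hbij := (Set.toFinite (Q : Set (G ⧸ P))).injOn_iff_bijOn_of_mapsTo
          (f := fun b => w * x * b * (w * x)⁻¹) hQn
        obtain ⟨b', hb', hbb⟩ := (hbij.1 fun a _ c _ h => by simpa using h).surjOn hb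
        rwa [← show b' = b by simpa using hbb]) (by
        rw [hgz, Nat.add_sub_cancel]
        intro hle
        exact hcen (Subgroup.mem_centralizer_iff.2 fun a ha =>
          Subgroup.mem_centralizer_singleton_iff.1 (hle ha)))
    exact hnab hQc
  -- the second layer
  let Gc := (G ⧸ P) ⧸ N
  have h0c : Cfsg.pPrimeCore p Gc = ⊥ := pPrimeCore_quotient
  have hsc : Cfsg.IsPSolvable p Gc := isPSolvable_quotient hsb N
  haveI : (Cfsg.pCore p Gc).Normal := Cfsg.pCore_normal p Gc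
  have hordc : orderOf (QuotientGroup.mk' (Cfsg.pCore p Gc) (QuotientGroup.mk' N x)) = p ^ (e + 1) := by
    refine orderOf_eq_prime_pow (fun h => hxe ?_) (by rw [← map_pow, ← map_pow, hexpS x hx, map_one, map_one])
    rw [← map_pow, ← map_pow] at h
    exact mem_pPrimePCore.2 ((QuotientGroup.eq_one_iff _).1 h)
  have hlift : ∀ v ∈ Cfsg.pCore p Gc, ∃ w ∈ P₂, QuotientGroup.mk' N w = v := by
    intro v hv
    have h1 := pCore_le_sylow (S.mapSurjective (QuotientGroup.mk'_surjective N)) hv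
    rw [Sylow.coe_mapSurjective] at h1
    obtain ⟨w, hw, hwv⟩ := h1
    exact ⟨w, ⟨mem_pPrimePCore.2 (by rw [hwv]; exact hv), hw⟩, hwv⟩
  obtain ⟨-, -, hC⟩ := deficient hsc h0c (QuotientGroup.mk' N x) (e + 1) hordc e.succ_pos fun v hv => by
    obtain ⟨w, hw, rfl⟩ := hlift v hv
    rw [← map_mul, ← map_pow, ← map_pow, hexpS _ (hvar w hw).1, hexpS x hx, map_one, inv_one, mul_one]
    exact one_mem _
  obtain ⟨v, hv, hvne⟩ := hC (by
    rw [Nat.add_sub_cancel, pow_succ]
    have h3 : 3 ≤ p := by have := hp.out.two_le; omega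
    calc 2 * p ^ e ≤ (p - 1) * p ^ e := Nat.mul_le_mul_right _ (by omega)
      _ = p ^ e * p - p ^ e := by rw [Nat.sub_one_mul, mul_comm p])
  obtain ⟨w, hw, rfl⟩ := hlift v hv
  rw [Nat.add_sub_cancel] at hvne
  set n := (w * x) ^ p ^ e * (x ^ p ^ e)⁻¹ with hnw
  set c := x ^ p ^ e * n * (x ^ p ^ e)⁻¹ * n⁻¹ with hcw
  have hcne : QuotientGroup.mk' N c ≠ 1 := fun h => hvne (by
    simp only [hcw, hnw, map_mul, map_inv, map_pow] at h
    rw [h]
    exact one_mem _)
  have hnP := hn w hw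
  have hcS : c ∈ (S : Subgroup (G ⧸ P)) :=
    mul_mem (mul_mem (mul_mem (pow_mem hx _) hnP.2) (inv_mem (pow_mem hx _))) (inv_mem hnP.2)
  have hcU : c ∈ U₂ := U₂.mul_mem (hUn.conj_mem n hnP.1 _) (U₂.inv_mem hnP.1)
  -- `c` centralises `N`
  have hSN : (S : Subgroup (G ⧸ P)) ≤ Subgroup.normalizer (N : Set (G ⧸ P)) := by
    rw [Subgroup.normalizer_eq_top_iff.2 hNn]; exact le_top
  have hcop : (Nat.card (S : Subgroup (G ⧸ P))).Coprime (Nat.card N) := by
    obtain ⟨i, hi⟩ := IsPGroup.iff_card.1 S.isPGroup'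
    rw [hi]
    exact (pPrimeCore_coprime p (G ⧸ P)).symm.pow_left i
  have hcN : c ∈ Subgroup.centralizer (N : Set (G ⧸ P)) := by
    set K := N ⊓ Subgroup.centralizer ({c} : Set (G ⧸ P))
    suffices hK : N ≤ K from Subgroup.mem_centralizer_iff.2 fun a ha =>
      Subgroup.mem_centralizer_singleton_iff.1 (hK ha).2
    refine (Subgroup.eq_of_le_of_card_ge inf_le_left ?_).ge
    refine Nat.le_of_dvd Nat.card_pos ((Nat.factorization_le_iff_dvd Nat.card_pos.ne' Nat.card_pos.ne').1 fun q => ?_)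
    by_cases hq : q.Prime
    swap
    · simp [Nat.factorization_eq_zero_of_not_prime _ hq]
    by_cases hqd : q ∣ Nat.card N
    swap
    · simp [Nat.factorization_eq_zero_of_not_dvd hqd]
    haveI := Fact.mk hq
    haveI : Group.IsNilpotent (S : Subgroup (G ⧸ P)) := S.isPGroup'.isNilpotent
    obtain ⟨R, hR⟩ := CfsgLib.CoprimeAction.exists_invariant_sylow hSN hcop (Or.inl inferInstance) q
    set T := (R : Subgroup N).map N.subtype with hT
    have hqp : q ≠ p := fun h => hq.ne_one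
      (Nat.eq_one_of_dvd_coprimes (pPrimeCore_coprime p (G ⧸ P)) hqd (dvd_of_eq h))
    set L := Subgroup.normalizer (T : Set (G ⧸ P))
    have hTL : T ≤ L := Subgroup.le_normalizer
    haveI : (T.subgroupOf L).Normal := Subgroup.normal_in_normalizer
    have hP₂S : P₂ ≤ (S : Subgroup (G ⧸ P)) := inf_le_right
    have hyL : x ^ p ^ e ∈ L := hR (pow_mem hx _)
    have hnL : n ∈ L := hR (hP₂S hnP)
    have h1 := bottom_commutator_mem_centralizer (L := L) hp2 hqp (T.subgroupOf L)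
      ((R.isPGroup'.map N.subtype).comap_of_injective L.subtype L.subtype_injective)
      ((S : Subgroup (G ⧸ P)).subgroupOf L) (P₂.subgroupOf L)
      (S.isPGroup'.comap_of_injective L.subtype L.subtype_injective) (Subgroup.comap_mono hP₂S)
      (fun g hg a ha => ⟨hUn.conj_mem (a : G ⧸ P) ha.1 (g : G ⧸ P),
        (S : Subgroup (G ⧸ P)).mul_mem ((S : Subgroup (G ⧸ P)).mul_mem hg ha.2) ((S : Subgroup (G ⧸ P)).inv_mem hg)⟩)
      e (fun g hg => Subtype.ext (by rw [SubmonoidClass.coe_pow]; exact hexpS _ hg)) ⟨x, hR hx⟩ hx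
      (fun v hv => by
        have := hn (v : G ⧸ P) hv
        simpa [Subgroup.mem_subgroupOf] using this)
      (fun v hv U hU hUc hUn' => by
        have h2 := hab (v : G ⧸ P) hv q hq hqp (U.map L.subtype)
          (((R.isPGroup'.map N.subtype).comap_of_injective L.subtype L.subtype_injective).to_le hU |>.map _)
          (by rintro _ ⟨a, ha, rfl⟩ _ ⟨b, hb, rfl⟩; exact congrArg Subtype.val (hUc a ha b hb))
          (by rintro _ ⟨a, ha, rfl⟩; exact ⟨_, hUn' a ha, rfl⟩)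
        refine Subgroup.mem_centralizer_iff.2 fun a ha => Subtype.ext ?_
        simp only [Subgroup.coe_mul, SubmonoidClass.coe_pow]
        exact Subgroup.mem_centralizer_iff.1 h2 _ ⟨a, ha, rfl⟩)
      ⟨w, hR (hP₂S hw)⟩ hw
    have hTK : T ≤ K := fun a ha => by
      refine ⟨Subgroup.map_subtype_le _ ha, Subgroup.mem_centralizer_singleton_iff.2 ?_⟩
      have h2 := congrArg Subtype.val (Subgroup.mem_centralizer_iff.1 h1 ⟨a, hTL ha⟩ ha)
      exact h2
    have h3 : Nat.card T = q ^ (Nat.card N).factorization q := CfsgLib.CoprimeAction.card_sylow_map R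
    exact (hq.pow_dvd_iff_le_factorization Nat.card_pos.ne').1 (h3 ▸ Subgroup.card_dvd_of_le hTK)
  -- `c` lies in a normal nilpotent subgroup without `p`-core
  haveI : (Subgroup.centralizer (N : Set (G ⧸ P))).Normal := Subgroup.normal_centralizer
  set C := U₂ ⊓ Subgroup.centralizer (N : Set (G ⧸ P)) with hC
  let f : C →* Cfsg.pCore p Gc := ((QuotientGroup.mk' N).comp C.subtype).codRestrict _ fun a =>
    mem_pPrimePCore.1 a.2.1
  haveI : Group.IsNilpotent (Cfsg.pCore p Gc) := (isPGroup_pCore p Gc).isNilpotent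
  haveI : Group.IsNilpotent C := Subgroup.isNilpotent_of_ker_le_center f (by
    intro a ha
    have ha' : (a : G ⧸ P) ∈ N := (QuotientGroup.eq_one_iff _).1 (congrArg Subtype.val ha)
    refine Subgroup.mem_center_iff.2 fun b => Subtype.ext ?_
    exact (Subgroup.mem_centralizer_iff.1 b.2.2 _ ha').symm)
  obtain ⟨k, hk⟩ := S.isPGroup' ⟨c, hcS⟩
  obtain ⟨R, hR⟩ := (IsPGroup.iff_card.2 ((Nat.dvd_prime_pow hp.out).1
    (show Nat.card (Subgroup.zpowers (⟨c, hcU, hcN⟩ : C)) ∣ p ^ k from by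
      rw [Nat.card_zpowers]
      exact orderOf_dvd_of_pow_eq_one (Subtype.ext (by
        rw [SubmonoidClass.coe_pow]; exact congrArg Subtype.val hk)))
      |>.imp fun _ h => h.2)).exists_le_sylow (p := p)
  haveI : (R : Subgroup C).Normal := Sylow.normal_of_normalizerCondition Group.normalizerCondition_of_isNilpotent R
  haveI : (R : Subgroup C).Characteristic := R.characteristic_of_normal inferInstance
  have h4 : (R : Subgroup C).map C.subtype ≤ Cfsg.pCore p (G ⧸ P) :=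
    le_pCore ConjAct.normal_of_characteristic_of_normal (R.isPGroup'.map _)
  rw [pCore_quotient] at h4
  have h5 : c = 1 := Subgroup.mem_bot.1 (h4 ⟨_, hR (Subgroup.mem_zpowers _), rfl⟩)
  exact hcne (by rw [h5, map_one])

theorem pLengthLE_two_mul (hp2 : p ≠ 2) : ∀ (e : ℕ) (G : Type u) [Group G] [Finite G], Cfsg.IsPSolvable p G →
    (∀ (P : Sylow p G), ∀ x ∈ (P : Subgroup G), x ^ p ^ e = 1) → Cfsg.PLengthLE p (2 * e) G := by
  intro e
  induction e with
  | zero =>
    intro G _ _ hs hexp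
    refine top_le_iff.1 ?_
    rw [mul_zero, mul_zero, zero_add, upperPSeries_one]
    refine le_pPrimeCore_of_not_dvd inferInstance fun hd => ?_
    rw [Subgroup.card_top] at hd
    obtain ⟨x, hx⟩ := exists_prime_orderOf_dvd_card' p hd
    obtain ⟨P, hP⟩ := (IsPGroup.of_card (G := Subgroup.zpowers x) (n := 1)
      (by rw [Nat.card_zpowers, hx, pow_one])).exists_le_sylow
    have h1 := hexp P x (hP (Subgroup.mem_zpowers x))
    rw [pow_zero, pow_one] at h1
    rw [h1, orderOf_one] at hx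
    exact hp.out.ne_one hx.symm
  | succ e IH =>
    have hUle : ∀ (H : Type u) [Group H] [Finite H],
        Cfsg.pPrimePCore p H ≤ (Cfsg.upperPSeries p H (2 * 1 + 1)).1 := by
      intro H _ _
      refine CfsgLib.PLengthProduct.le_upper_of_coprime_pow (pPrimePCore_normal p H) fun x hx =>
        ⟨1, Nat.coprime_one_left p, ?_⟩
      rw [pow_one]
      refine CfsgLib.PLengthProduct.le_upper_succ (pPrimePCore_normal p H) (fun y hy => ?_) hx
      refine ⟨1, ?_, fun _ => Nat.coprime_one_left p, fun h => absurd (by decide) h⟩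
      rw [pow_one]
      refine CfsgLib.PLengthProduct.le_upper_succ (pPrimePCore_normal p H) (fun z hz => ?_) hy
      obtain ⟨k, hk⟩ := isPGroup_pCore p (H ⧸ Cfsg.pPrimeCore p H) ⟨_, mem_pPrimePCore.1 hz⟩
      refine ⟨p ^ k, ?_, fun h => absurd h (by decide), fun _ => ⟨k, rfl⟩⟩
      rw [upperPSeries_one]
      refine (QuotientGroup.eq_one_iff _).1 ?_
      show QuotientGroup.mk' (Cfsg.pPrimeCore p H) (z ^ p ^ k) = 1
      rw [map_pow]
      exact congrArg Subtype.val hk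
    intro G _ _ hs hexp
    haveI : (Cfsg.pPrimeCore p G).Normal := Cfsg.pPrimeCore_normal p G
    rw [← zero_add (2 * (e + 1))]
    refine CfsgLib.PLengthProduct.pLengthLE_add (Cfsg.pPrimeCore p G)
      (by rw [mul_zero, zero_add, upperPSeries_one]) ?_
    set G₁ := G ⧸ Cfsg.pPrimeCore p G
    have h0 : Cfsg.pPrimeCore p G₁ = ⊥ := pPrimeCore_quotient
    have hs₁ : Cfsg.IsPSolvable p G₁ := isPSolvable_quotient hs _
    have hexp₁ := exponent_quotient hexp (Cfsg.pPrimeCore p G)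
    haveI : (Cfsg.pCore p G₁).Normal := Cfsg.pCore_normal p G₁
    rw [show 2 * (e + 1) = 1 + (1 + 2 * e) by ring]
    refine CfsgLib.PLengthProduct.pLengthLE_add (Cfsg.pCore p G₁) (pCore_le_pPrimePCore.trans (hUle G₁)) ?_
    haveI : (Cfsg.pPrimePCore p (G₁ ⧸ Cfsg.pCore p G₁)).Normal := pPrimePCore_normal p _
    refine CfsgLib.PLengthProduct.pLengthLE_add (Cfsg.pPrimePCore p (G₁ ⧸ Cfsg.pCore p G₁)) (hUle _)
      (IH _ (isPSolvable_quotient (isPSolvable_quotient hs₁ _) _) fun R => ?_)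
    obtain ⟨S, rfl⟩ := Sylow.mapSurjective_surjective
      (QuotientGroup.mk'_surjective (Cfsg.pPrimePCore p (G₁ ⧸ Cfsg.pCore p G₁))) p R
    rintro _ ⟨x, hx, rfl⟩
    rw [← map_pow]
    exact (QuotientGroup.eq_one_iff _).2 (pow_mem_pPrimePCore hp2 hs₁ h0 e hexp₁ S x hx)

end CfsgLib.HallHigmanB
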