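import Cfsg.Agent.S3784

/-!
The exceptional prime powers for an odd prime.
-/

set_option autoImplicit false

namespace CfsgLib.HallHigmanB

theorem exception_odd {p q n₀ m : ℕ} (hp : p.Prime) (hp2 : p ≠ 2) (hq : q.Prime) (hn : 1 ≤ n₀) (hm : 1 ≤ m)
    (h : p ^ n₀ - 1 = q ^ m) : q = 2 ∧ ∃ k : ℕ, p = 2 ^ k + 1 := by
  have h1 : p ^ n₀ = q ^ m + 1 := by
    have := Nat.one_le_pow n₀ p hp.pos
    omega
  rcases Cfsg.Agent.S3784.result p q n₀ m hp hq hn hm h1 with ⟨h2, -⟩ | ⟨h2, -, -, h3⟩ | ⟨h2, h3⟩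
  · exact absurd h2 hp2
  · exact ⟨h2, m, h3⟩
  · have hq2 : q = 2 := (Nat.prime_dvd_prime_iff_eq hq Nat.prime_two).1 (hq.dvd_of_dvd_pow (n := 3) (by
      rw [show (2 : ℕ) ^ 3 = 8 from rfl, ← h3]; exact dvd_pow_self q (by omega)))
    have hp3 : p = 3 := (Nat.prime_dvd_prime_iff_eq hp Nat.prime_three).1 (hp.dvd_of_dvd_pow (n := 2) (by
      rw [show (3 : ℕ) ^ 2 = 9 from rfl, ← h2]; exact dvd_pow_self p (by omega)))
    exact ⟨hq2, 1, by simpa using hp3⟩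

end CfsgLib.HallHigmanB
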