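import Cfsg.Agent.HallHigmanB.Quadratic
import Cfsg.Agent.HallHigmanB.TheoremA
import Cfsg.Agent.HallHigmanB.Fermat
import Cfsg.Agent.PReduced.Hom

/-!
The `p`-length is bounded by the derived length of a Sylow `p`-subgroup for odd `p`.
-/

set_option autoImplicit false
set_option linter.style.haveILetI false

namespace CfsgLib.HallHigmanB

open CfsgLib.PCore CfsgLib.PLocalBasics
open scoped IsMulCommutative commutatorElement

universe u

variable {p : ℕ} [hp : Fact p.Prime]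

theorem derived_le_pCore {G : Type u} [Group G] [Finite G] (hp2 : p ≠ 2) (hs : Cfsg.IsPSolvable p G)
    (h0 : Cfsg.pPrimeCore p G = ⊥) (S : Sylow p G) (d : ℕ)
    (hd : derivedSeries (S : Subgroup G) (d + 1) = ⊥) :
    (derivedSeries (S : Subgroup G) d).map (S : Subgroup G).subtype ≤ Cfsg.pCore p G := by
  classical
  set SS := (S : Subgroup G)
  set A := (derivedSeries SS d).map SS.subtype
  set P := Cfsg.pCore p G
  haveI hPn : P.Normal := Cfsg.pCore_normal p G
  have hPS : P ≤ SS := pCore_le_sylow S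
  have hAS : A ≤ SS := Subgroup.map_subtype_le _
  have hser : ∀ i, ∀ g ∈ SS, ∀ a ∈ (derivedSeries SS i).map SS.subtype,
      g * a * g⁻¹ ∈ (derivedSeries SS i).map SS.subtype := by
    rintro i g hg _ ⟨a, ha, rfl⟩
    exact ⟨⟨g, hg⟩ * a * ⟨g, hg⟩⁻¹, (inferInstance : (derivedSeries SS i).Normal).conj_mem a ha _, rfl⟩
  have hAc : ∀ a ∈ A, ∀ b ∈ A, a * b = b * a := by
    rintro _ ⟨a, ha, rfl⟩ _ ⟨b, hb, rfl⟩
    have h1 : ⁅a, b⁆ ∈ derivedSeries SS (d + 1) := Subgroup.commutator_mem_commutator ha hb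
    rw [hd, Subgroup.mem_bot, commutatorElement_eq_one_iff_mul_comm] at h1
    exact congrArg Subtype.val h1
  rcases Nat.eq_zero_or_pos d with rfl | hd0
  · -- abelian Sylow subgroup
    have hA : A = SS := by
      show ((⊤ : Subgroup SS)).map SS.subtype = SS
      rw [← MonoidHom.range_eq_map, SS.range_subtype]
    intro a ha
    refine hall_higman hs h0 (Subgroup.mem_centralizer_iff.2 fun v hv => ?_)
    exact hAc v (hA.symm ▸ hPS hv) a ha
  by_contra hAP
  set π := QuotientGroup.mk' (coreFrattini p G) with hπ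
  set Vb := P.map π with hVb
  haveI hVn : Vb.Normal := hPn.map π (QuotientGroup.mk'_surjective _)
  have hPp := isPGroup_pCore p G
  have hfr : ∀ z : P, z ∈ frattini P → π (z : G) = 1 := fun z hz =>
    (QuotientGroup.eq_one_iff _).2 ⟨z, hz, rfl⟩
  haveI : IsMulCommutative Vb := ⟨⟨fun a b => by
    obtain ⟨_, a, ha, rfl⟩ := a
    obtain ⟨_, b, hb, rfl⟩ := b
    refine Subtype.ext ?_
    show π a * π b = π b * π a
    have h1 := hfr ((⟨a, ha⟩ : P) * ⟨b, hb⟩ * ⟨a, ha⟩⁻¹ * ⟨b, hb⟩⁻¹)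
      (CfsgLib.CoprimeAction.commutator_le_frattini' hPp
        (Subgroup.commutator_mem_commutator (Subgroup.mem_top _) (Subgroup.mem_top _)))
    rw [← mul_inv_eq_one, ← h1]
    simp [map_mul, map_inv, mul_assoc]⟩⟩
  haveI : Module (ZMod p) (Additive Vb) := AddCommGroup.zmodModule (n := p) (G := Additive Vb) fun a => by
    obtain ⟨⟨_, a, ha, rfl⟩, rfl⟩ := Additive.ofMul.surjective a
    rw [← ofMul_pow]
    refine congrArg Additive.ofMul (Subtype.ext ?_)
    show π a ^ p = 1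
    rw [← map_pow]
    exact hfr ((⟨a, ha⟩ : P) ^ p) (CfsgLib.CoprimeAction.pow_mem_frattini hPp _)
  let ρ₀ : G →* Module.End (ZMod p) (Additive Vb) := (CfsgLib.ExtraFpf.conjRep Vb p).comp
    (π.codRestrict (Subgroup.normalizer (Vb : Set (G ⧸ coreFrattini p G))) fun g => by
      rw [Subgroup.normalizer_eq_top_iff.2 hVn]; exact Subgroup.mem_top _)
  have hker : ∀ g, ρ₀ g = 1 ↔ g ∈ P := fun g => by
    refine (CfsgLib.ExtraFpf.conjRep_eq_one Vb p _).trans ⟨fun h => centralizer_topLayer hs h0 h, fun h => ?_⟩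
    refine Subgroup.mem_centralizer_iff.2 fun a ha => ?_
    exact congrArg Subtype.val (IsMulCommutative.is_comm.comm (⟨a, ha⟩ : Vb) ⟨π g, g, h, rfl⟩)
  let ρ : G ⧸ P →* Module.End (ZMod p) (Additive Vb) := QuotientGroup.lift P ρ₀ fun g hg => (hker g).2 hg
  have hρ : Function.Injective ρ := by
    rw [← MonoidHom.ker_eq_bot_iff, eq_bot_iff]
    intro a ha
    obtain ⟨g, rfl⟩ := QuotientGroup.mk'_surjective P a
    exact Subgroup.mem_bot.2 ((QuotientGroup.eq_one_iff g).2 ((hker g).1 ha))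
  let el : ∀ v : G, v ∈ P → Additive Vb := fun v hv => Additive.ofMul ⟨π v, v, hv, rfl⟩
  have hD : ∀ (g v : G) (hv : v ∈ P), (ρ (QuotientGroup.mk' P g) - 1) (el v hv) =
      el (g * v * g⁻¹ * v⁻¹) (P.mul_mem (hPn.conj_mem v hv g) (P.inv_mem hv)) := fun g v hv => by
    rw [LinearMap.sub_apply, Module.End.one_apply, sub_eq_add_neg]
    apply Additive.toMul.injective
    refine Subtype.ext ?_
    show π g * π v * (π g)⁻¹ * (π v)⁻¹ = π (g * v * g⁻¹ * v⁻¹)
    simp [map_mul, map_inv]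
  have hzero : ∀ (v : G) (hv : v ∈ P), v = 1 → el v hv = 0 := fun v hv h => by
    subst h
    exact Additive.toMul.injective (Subtype.ext (map_one π))
  -- a central element of the last derived term
  set π₁ := QuotientGroup.mk' P
  let Sb := S.mapSurjective (QuotientGroup.mk'_surjective P)
  set Ab := A.map π₁
  have hAb : Ab ≠ ⊥ := fun h => hAP (by
    have h1 := (Subgroup.map_eq_bot_iff A).1 h
    rwa [QuotientGroup.ker_mk'] at h1)
  have hAbS : Ab ≤ (Sb : Subgroup (G ⧸ P)) := by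
    rw [Sylow.coe_mapSurjective]; exact Subgroup.map_mono hAS
  haveI : (Ab.subgroupOf (Sb : Subgroup (G ⧸ P))).Normal := ⟨by
    rintro ⟨a, haS⟩ ha ⟨g, hgS⟩
    rw [Sylow.coe_mapSurjective] at hgS
    obtain ⟨g, hg, rfl⟩ := hgS
    obtain ⟨a', ha', hae⟩ := Subgroup.mem_subgroupOf.1 ha
    refine Subgroup.mem_subgroupOf.2 ⟨g * a' * g⁻¹, hser d g hg a' ha', ?_⟩
    rw [map_mul, map_mul, map_inv, hae]; rfl⟩
  obtain ⟨zb, hz1, hz2, hzp⟩ : ∃ zb ∈ Ab, (∀ b ∈ (Sb : Subgroup (G ⧸ P)), zb * b = b * zb) ∧ orderOf zb = p := by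
    haveI : Group.IsNilpotent (Sb : Subgroup (G ⧸ P)) := Sb.isPGroup'.isNilpotent
    have hne : Ab.subgroupOf (Sb : Subgroup (G ⧸ P)) ≠ ⊥ := fun h => hAb (by
      rw [← Subgroup.map_subgroupOf_eq_of_le hAbS, h, Subgroup.map_bot])
    have h1 : Ab.subgroupOf (Sb : Subgroup (G ⧸ P)) ⊓ Subgroup.center _ ≠ ⊥ :=
      CfsgLib.PReduced.inf_center_ne_bot Sb.isPGroup' hne
    obtain ⟨⟨w, hwA, hwc⟩, hw⟩ := exists_prime_orderOf_dvd_card' (G := ↥(Ab.subgroupOf (Sb : Subgroup (G ⧸ P)) ⊓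
      Subgroup.center _)) p (by
      obtain ⟨i, hi⟩ := IsPGroup.iff_card.1 (Sb.isPGroup'.to_subgroup (Ab.subgroupOf (Sb : Subgroup (G ⧸ P)) ⊓
        Subgroup.center _))
      rw [hi]
      refine dvd_pow_self p fun h0 => ?_
      rw [h0, pow_zero] at hi
      exact h1 (Subgroup.card_eq_one.1 hi))
    rw [← Subgroup.orderOf_coe, ← Subgroup.orderOf_coe] at hw
    exact ⟨_, hwA, fun b hb => (congrArg Subtype.val (Subgroup.mem_center_iff.1 hwc ⟨b, hb⟩)).symm, hw⟩
  obtain ⟨x, hxA, hxz⟩ := hz1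
  haveI : Nontrivial (Additive Vb) := by
    by_contra hnt
    rw [not_nontrivial_iff_subsingleton] at hnt
    have h1 : zb = 1 := hρ (LinearMap.ext fun a => Subsingleton.elim _ _)
    rw [h1, orderOf_one] at hzp
    exact hp.out.ne_one hzp.symm
  have hquad : (ρ zb - 1) ^ 2 = 0 := by
    refine LinearMap.ext fun a => ?_
    obtain ⟨⟨_, v, hv, rfl⟩, rfl⟩ := Additive.ofMul.surjective a
    have m1 := P.mul_mem (hPn.conj_mem v hv x) (P.inv_mem hv)
    rw [← hxz, pow_two, Module.End.mul_apply, hD x v hv, hD x _ m1, LinearMap.zero_apply]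
    refine hzero _ (P.mul_mem (hPn.conj_mem _ m1 x) (P.inv_mem m1)) ?_
    have h1 : x * v * x⁻¹ * v⁻¹ ∈ A := by
      rw [show x * v * x⁻¹ * v⁻¹ = x * (v * x⁻¹ * v⁻¹) by group]
      exact A.mul_mem hxA (hser d v (hPS hv) _ (A.inv_mem hxA))
    rw [hAc x hxA _ h1, mul_inv_cancel_right, mul_inv_cancel]
  have hsq : Cfsg.IsPSolvable p (G ⧸ P) := isPSolvable_quotient hs P
  have hOp : Cfsg.pCore p (G ⧸ P) = ⊥ := pCore_quotient
  have hB := (theorem_B_field ρ hρ hsq hOp zb 1 (by rwa [pow_one]) 2 hquad).resolve_left fun h => by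
    rw [pow_one] at h
    have := hp.out.two_le
    omega
  obtain ⟨n₀, q, m, hn1, hn2, -, -, -, -, hbound⟩ := hB
  obtain rfl : n₀ = 1 := by omega
  have hp3 : p = 3 := by
    rw [Nat.sub_self, pow_zero, one_mul, pow_one] at hbound
    have := hp.out.two_le
    omega
  subst hp3
  -- the case `p = 3`
  set Bd := (derivedSeries SS (d - 1)).map SS.subtype
  have hBA : ∀ a ∈ Bd, ∀ b ∈ Bd, ⁅a, b⁆ ∈ A := by
    rintro _ ⟨a, ha, rfl⟩ _ ⟨b, hb, rfl⟩
    refine ⟨⁅a, b⁆, ?_, map_commutatorElement _ _ _⟩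
    have h1 : ⁅a, b⁆ ∈ derivedSeries SS (d - 1 + 1) := Subgroup.commutator_mem_commutator ha hb
    rwa [Nat.sub_add_cancel hd0] at h1
  have hAB : A ≤ ⁅Bd, Bd⁆ := by
    show (derivedSeries SS d).map SS.subtype ≤ _
    conv_lhs => rw [← Nat.sub_add_cancel hd0]
    exact (Subgroup.map_commutator _ _ _).le
  set B := Bd.map π₁
  have hBS : B ≤ (Sb : Subgroup (G ⧸ P)) := by
    rw [Sylow.coe_mapSurjective]; exact Subgroup.map_mono (Subgroup.map_subtype_le _)
  obtain ⟨φ, hφ⟩ := exists_baseChange (F := ZMod 3) (V := Additive Vb)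
  haveI : CharP (AlgebraicClosure (ZMod 3)) 3 :=
    charP_of_injective_algebraMap (algebraMap (ZMod 3) (AlgebraicClosure (ZMod 3))).injective 3
  -- an invariant subgroup moved by `zb`
  set N := Cfsg.pPrimeCore 3 (G ⧸ P)
  haveI hNn : N.Normal := Cfsg.pPrimeCore_normal 3 _
  have hzN : ¬ N ≤ Subgroup.centralizer ({zb} : Set (G ⧸ P)) := by
    intro h
    have h1 : zb ∈ N := centralizer_pPrimeCore_le hsq hOp
      (Subgroup.mem_centralizer_iff.2 fun a ha => Subgroup.mem_centralizer_singleton_iff.1 (h ha))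
    exact Nat.prime_three.ne_one (Nat.eq_one_of_dvd_coprimes (pPrimeCore_coprime 3 (G ⧸ P))
      ((dvd_of_eq hzp.symm).trans (Subgroup.orderOf_dvd_natCard N h1)) dvd_rfl)
  obtain ⟨r, hr, hr3, R, hRp, hRS, hRz⟩ : ∃ r : ℕ, r.Prime ∧ r ≠ 3 ∧ ∃ R : Subgroup (G ⧸ P), IsPGroup r R ∧
      (Sb : Subgroup (G ⧸ P)) ≤ Subgroup.normalizer (R : Set (G ⧸ P)) ∧
      ¬ R ≤ Subgroup.centralizer ({zb} : Set (G ⧸ P)) := by
    by_contra hall
    push Not at hall
    refine hzN (inf_eq_left.1 (Subgroup.eq_of_le_of_card_ge inf_le_left (Nat.le_of_dvd Nat.card_pos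
      ((Nat.factorization_le_iff_dvd Nat.card_pos.ne' Nat.card_pos.ne').1 fun r => ?_))))
    by_cases hr : r.Prime
    swap
    · simp [Nat.factorization_eq_zero_of_not_prime _ hr]
    by_cases hrd : r ∣ Nat.card N
    swap
    · simp [Nat.factorization_eq_zero_of_not_dvd hrd]
    haveI := Fact.mk hr
    haveI : Group.IsNilpotent (Sb : Subgroup (G ⧸ P)) := Sb.isPGroup'.isNilpotent
    obtain ⟨R, hR⟩ := CfsgLib.CoprimeAction.exists_invariant_sylow
      (A := (Sb : Subgroup (G ⧸ P))) (K := N) (by rw [Subgroup.normalizer_eq_top_iff.2 hNn]; exact le_top)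
      (by
        obtain ⟨i, hi⟩ := IsPGroup.iff_card.1 Sb.isPGroup'
        rw [hi]
        exact (pPrimeCore_coprime 3 (G ⧸ P)).symm.pow_left i) (Or.inl inferInstance) r
    have h1 := hall r hr (fun h => hr.ne_one (Nat.eq_one_of_dvd_coprimes (pPrimeCore_coprime 3 (G ⧸ P)) hrd
      (dvd_of_eq h))) _ (R.isPGroup'.map N.subtype) hR
    refine (hr.pow_dvd_iff_le_factorization Nat.card_pos.ne').1 ?_
    rw [← CfsgLib.CoprimeAction.card_sylow_map R]
    exact Subgroup.card_dvd_of_le (le_inf (Subgroup.map_subtype_le _) h1)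
  refine quadratic_commutator_false (φ.toMonoidHom.comp ρ) (hφ.comp hρ) B R zb hr hr3 hRp
    (Sb.isPGroup'.to_le hBS) ?_ (by rw [← hzp, pow_orderOf_eq_one]) (fun b hb => hz2 b (hBS hb))
    (hBS.trans hRS) hRz ?_ ?_
  · rw [← hxz, ← Subgroup.map_commutator]
    exact Subgroup.mem_map_of_mem π₁ (hAB hxA)
  · show (φ (ρ zb) - 1) ^ 2 = 0
    rw [← map_one φ, ← map_sub, ← map_pow, hquad, map_zero]
  · rintro _ ⟨b, hb, rfl⟩
    show (φ (ρ (π₁ b)) - 1) ^ 2 * (φ (ρ zb) - 1) = 0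
    rw [← map_one φ, ← map_sub, ← map_sub, ← map_pow, ← map_mul]
    have hcm : Commute (ρ (π₁ b) - 1) (ρ zb - 1) :=
      ((show Commute zb (π₁ b) from hz2 _ (hBS ⟨b, hb, rfl⟩)).symm.map ρ |>.sub_right (Commute.one_right _)).sub_left
        (Commute.one_left _)
    rw [(hcm.pow_left 2).eq]
    refine (congrArg φ ?_).trans (map_zero φ)
    refine LinearMap.ext fun a => ?_
    obtain ⟨⟨_, v, hv, rfl⟩, rfl⟩ := Additive.ofMul.surjective a
    have e1 := P.mul_mem (hPn.conj_mem v hv b) (P.inv_mem hv)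
    have e2 := P.mul_mem (hPn.conj_mem _ e1 b) (P.inv_mem e1)
    rw [Module.End.mul_apply, pow_two, Module.End.mul_apply, hD b v hv, hD b _ e1, ← hxz, hD x _ e2,
      LinearMap.zero_apply]
    refine hzero _ (P.mul_mem (hPn.conj_mem _ e2 x) (P.inv_mem e2)) ?_
    have hbS : b ∈ SS := Subgroup.map_subtype_le _ hb
    set m1 := b * v * b⁻¹ * v⁻¹
    have h1 : m1 ∈ Bd := by
      rw [show m1 = b * (v * b⁻¹ * v⁻¹) by simp only [m1]; group]
      exact Bd.mul_mem hb (hser (d - 1) v (hPS hv) _ (Bd.inv_mem hb))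
    have h2 : b * m1 * b⁻¹ * m1⁻¹ ∈ A := hBA b hb m1 h1
    rw [hAc x hxA _ h2, mul_inv_cancel_right, mul_inv_cancel]

theorem pLengthLE_derivedLength (hp2 : p ≠ 2) : ∀ (d : ℕ) (G : Type u) [Group G] [Finite G],
    Cfsg.IsPSolvable p G → (∀ P : Sylow p G, derivedSeries (P : Subgroup G) d = ⊥) → Cfsg.PLengthLE p d G := by
  intro d
  induction d with
  | zero =>
    intro G _ _ _ hd
    refine top_le_iff.1 ?_
    rw [mul_zero, zero_add, upperPSeries_one]
    refine le_pPrimeCore_of_not_dvd inferInstance fun hdv => ?_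
    rw [Subgroup.card_top] at hdv
    obtain ⟨P⟩ : Nonempty (Sylow p G) := inferInstance
    have h1 := P.dvd_card_of_dvd_card hdv
    have h2 : (⊤ : Subgroup (P : Subgroup G)) = ⊥ := hd P
    rw [show Nat.card (P : Subgroup G) = 1 by rw [← Subgroup.card_top, h2, Subgroup.card_bot]] at h1
    exact hp.out.not_dvd_one h1
  | succ d IH =>
    have hquot : ∀ {G : Type u} [Group G] [Finite G] (N : Subgroup G) [N.Normal] (i : ℕ) (M : Subgroup G),
        (∀ S : Sylow p G, (derivedSeries (S : Subgroup G) i).map (S : Subgroup G).subtype ≤ M) → M ≤ N →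
        ∀ R : Sylow p (G ⧸ N), derivedSeries (R : Subgroup (G ⧸ N)) i = ⊥ := by
      intro G _ _ N _ i M hM hMN R
      obtain ⟨S, rfl⟩ := Sylow.mapSurjective_surjective (QuotientGroup.mk'_surjective N) p R
      have h1 := map_derivedSeries_eq ((QuotientGroup.mk' N).subgroupMap_surjective (S : Subgroup G)) i
      rw [Sylow.coe_mapSurjective, ← h1, Subgroup.map_eq_bot_iff]
      intro a ha
      refine MonoidHom.mem_ker.2 (Subtype.ext ((QuotientGroup.eq_one_iff _).2 (hMN (hM S ⟨a, ha, rfl⟩))))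
    intro G _ _ hs hd
    haveI : (Cfsg.pPrimeCore p G).Normal := Cfsg.pPrimeCore_normal p G
    rw [← zero_add (d + 1)]
    refine CfsgLib.PLengthProduct.pLengthLE_add (Cfsg.pPrimeCore p G)
      (by rw [mul_zero, zero_add, upperPSeries_one]) ?_
    set G₁ := G ⧸ Cfsg.pPrimeCore p G
    have h0 : Cfsg.pPrimeCore p G₁ = ⊥ := pPrimeCore_quotient
    have hs₁ : Cfsg.IsPSolvable p G₁ := isPSolvable_quotient hs _
    have hd₁ := hquot (Cfsg.pPrimeCore p G) (d + 1) ⊥ (fun S => by rw [hd S, Subgroup.map_bot]) bot_le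
    haveI : (Cfsg.pCore p G₁).Normal := Cfsg.pCore_normal p G₁
    rw [add_comm d 1]
    refine CfsgLib.PLengthProduct.pLengthLE_add (Cfsg.pCore p G₁) ?_ (IH _ (isPSolvable_quotient hs₁ _)
      (hquot (Cfsg.pCore p G₁) d _ (fun S => derived_le_pCore hp2 hs₁ h0 S d (hd₁ S)) le_rfl))
    refine CfsgLib.PLengthProduct.le_upper_of_coprime_pow inferInstance fun x hx => ⟨1, Nat.coprime_one_left p, ?_⟩
    rw [pow_one]
    refine CfsgLib.PLengthProduct.le_upper_succ inferInstance (fun y hy => ?_) hx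
    refine ⟨1, ?_, fun _ => Nat.coprime_one_left p, fun h => absurd (by decide) h⟩
    rw [pow_one]
    refine CfsgLib.PLengthProduct.le_upper_succ inferInstance (fun z hz => ?_) hy
    obtain ⟨k, hk⟩ := isPGroup_pCore p G₁ ⟨z, hz⟩
    refine ⟨p ^ k, ?_, fun h => absurd h (by decide), fun _ => ⟨k, rfl⟩⟩
    rw [show z ^ p ^ k = 1 from congrArg Subtype.val hk]
    exact one_mem _

end CfsgLib.HallHigmanB
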