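import Cfsg.Agent.HallHigmanB.Wreath
import Cfsg.Agent.HallHigmanB.TheoremA
import Cfsg.Agent.HallHigmanB.Fermat
import Cfsg.Agent.ZJ.Involves

/-!
`p`-length one without wreath product sections.
-/

set_option autoImplicit false
set_option linter.style.haveILetI false

namespace CfsgLib.HallHigmanB

open CfsgLib.PCore CfsgLib.PLocalBasics

universe u

theorem pLengthLE_one_of_no_wreath {G : Type u} [Group G] [Finite G] {p : ℕ} [hp : Fact p.Prime] (hp2 : p ≠ 2)
    (hnf : ¬ ∃ k : ℕ, p = 2 ^ k + 1) (hG : Cfsg.IsPSolvable p G) (P : Sylow p G)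
    (hwr : ∀ (W : Type) [Group W] [Finite W], (∃ (B : Subgroup W) (t : W), B.Normal ∧ IsMulCommutative B ∧
      (∀ b ∈ B, b ^ p = 1) ∧ Nat.card B = p ^ p ∧ orderOf t = p ∧ t ∉ B ∧ Nat.card W = p ^ (p + 1) ∧
      Nat.card ↥(B ⊓ Subgroup.centralizer ({t} : Set W)) = p) → ¬ Cfsg.Involves W ↥(P : Subgroup G)) :
    Cfsg.PLengthLE p 1 G := by
  classical
  haveI : (Cfsg.pPrimeCore p G).Normal := Cfsg.pPrimeCore_normal p G
  set q1 := QuotientGroup.mk' (Cfsg.pPrimeCore p G)
  rw [← zero_add 1]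
  refine CfsgLib.PLengthProduct.pLengthLE_add (Cfsg.pPrimeCore p G) (by rw [mul_zero, zero_add, upperPSeries_one]) ?_
  set G₁ := G ⧸ Cfsg.pPrimeCore p G
  have h0 : Cfsg.pPrimeCore p G₁ = ⊥ := pPrimeCore_quotient
  have hs : Cfsg.IsPSolvable p G₁ := isPSolvable_quotient hG _
  let S := P.mapSurjective (QuotientGroup.mk'_surjective (Cfsg.pPrimeCore p G))
  haveI hPn : (Cfsg.pCore p G₁).Normal := Cfsg.pCore_normal p G₁
  set O := Cfsg.pCore p G₁
  have hndvd : ¬ p ∣ Nat.card (G₁ ⧸ O) := by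
    intro hd
    let Q := S.mapSurjective (QuotientGroup.mk'_surjective O)
    have hdQ : p ∣ Nat.card Q := Q.dvd_card_of_dvd_card hd
    obtain ⟨⟨_, x, hx, rfl⟩, hxo⟩ := exists_prime_orderOf_dvd_card' p hdQ
    rw [← Subgroup.orderOf_coe] at hxo
    change orderOf (QuotientGroup.mk' O x) = p at hxo
    obtain ⟨v, hv, hne⟩ : ∃ v ∈ O, (v * x) ^ p * (x ^ p)⁻¹ ∉ coreFrattini p G₁ := by
      by_contra hcon
      push Not at hcon
      obtain ⟨⟨n₀, q, m, h1, -, hq, h2, h3, -⟩, -, -⟩ := deficient hs h0 x 1 (by rwa [pow_one]) one_pos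
        (by simpa only [pow_one] using hcon)
      exact hnf (exception_odd hp.out hp2 hq h1 h2 h3).2
    set π := QuotientGroup.mk' (coreFrattini p G₁)
    haveI hVn : (O.map π).Normal := hPn.map π (QuotientGroup.mk'_surjective _)
    have hfr : ∀ z : O, z ∈ frattini O → π (z : G₁) = 1 := fun z hz =>
      (QuotientGroup.eq_one_iff _).2 ⟨z, hz, rfl⟩
    have hOp := isPGroup_pCore p G₁
    haveI : IsMulCommutative ↥(O.map π) := ⟨⟨fun a b => by
      obtain ⟨_, a, ha, rfl⟩ := a
      obtain ⟨_, b, hb, rfl⟩ := b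
      refine Subtype.ext ?_
      show π a * π b = π b * π a
      have h1 := hfr ((⟨a, ha⟩ : O) * ⟨b, hb⟩ * ⟨a, ha⟩⁻¹ * ⟨b, hb⟩⁻¹)
        (CfsgLib.CoprimeAction.commutator_le_frattini' hOp
          (Subgroup.commutator_mem_commutator (Subgroup.mem_top _) (Subgroup.mem_top _)))
      rw [← mul_inv_eq_one, ← h1]
      simp [map_mul, map_inv, mul_assoc]⟩⟩
    have hexp : ∀ a : O.map π, a ^ p = 1 := by
      rintro ⟨_, a, ha, rfl⟩
      refine Subtype.ext ?_
      show π a ^ p = 1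
      rw [← map_pow]
      exact hfr ((⟨a, ha⟩ : O) ^ p) (CfsgLib.CoprimeAction.pow_mem_frattini hOp _)
    have hxO : π x ∉ O.map π := by
      rintro ⟨y, hy, hyx⟩
      have h1 : QuotientGroup.mk' O x = 1 := (QuotientGroup.eq_one_iff x).2 (by
        have := O.mul_mem hy (coreFrattini_le (p := p) (QuotientGroup.eq.1 hyx))
        rwa [mul_inv_cancel_left] at this)
      rw [h1, orderOf_one] at hxo
      exact hp.out.ne_one hxo.symm
    have hxp : π x ^ p ∈ O.map π := by
      rw [← map_pow]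
      refine Subgroup.mem_map_of_mem π ((QuotientGroup.eq_one_iff _).1 ?_)
      show QuotientGroup.mk' O (x ^ p) = 1
      rw [map_pow]
      exact (congrArg (QuotientGroup.mk' O x ^ ·) hxo.symm).trans (pow_orderOf_eq_one _)
    obtain ⟨T, hT, W, _, _, hW, φ, hφ⟩ := exists_wreath (O.map π) hexp (π x)
      (by rw [Subgroup.normalizer_eq_top_iff.2 hVn]; exact Subgroup.mem_top _) hxO hxp (π v) ⟨v, hv, rfl⟩
      (by rw [← map_mul, ← map_pow, ← map_pow, ← map_inv, ← map_mul]
          exact fun h => hne ((QuotientGroup.eq_one_iff _).1 h))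
    refine hwr W hW ?_
    set f := (π.comp q1).comp (P : Subgroup G).subtype
    have himg : T ≤ f.range := by
      refine hT.trans (le_trans ?_ (le_of_eq (show (S : Subgroup G₁).map π = f.range by
        rw [Sylow.coe_mapSurjective, Subgroup.map_map, MonoidHom.range_comp, Subgroup.range_subtype])))
      exact sup_le (Subgroup.map_mono (pCore_le_sylow S))
        (Subgroup.zpowers_le.2 (Subgroup.mem_map_of_mem π hx))
    refine CfsgLib.ZJ.involves_of_hom (T.comap f) (φ.comp (f.subgroupComap T)) (hφ.comp ?_)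
    intro y
    obtain ⟨g, hg⟩ := himg y.2
    exact ⟨⟨g, by rw [Subgroup.mem_comap, hg]; exact y.2⟩, Subtype.ext hg⟩
  rw [show 1 = 1 + 0 from rfl]
  refine CfsgLib.PLengthProduct.pLengthLE_add O ?_ ?_
  · refine CfsgLib.PLengthProduct.le_upper_of_coprime_pow inferInstance fun x hx => ⟨1, Nat.coprime_one_left p, ?_⟩
    rw [pow_one]
    refine CfsgLib.PLengthProduct.le_upper_succ inferInstance (fun y hy => ?_) hx
    refine ⟨1, ?_, fun _ => Nat.coprime_one_left p, fun h => absurd (by decide) h⟩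
    rw [pow_one]
    refine CfsgLib.PLengthProduct.le_upper_succ inferInstance (fun z hz => ?_) hy
    obtain ⟨k, hk⟩ := isPGroup_pCore p G₁ ⟨z, hz⟩
    refine ⟨p ^ k, ?_, fun h => absurd h (by decide), fun _ => ⟨k, rfl⟩⟩
    rw [show z ^ p ^ k = 1 from congrArg Subtype.val hk]
    exact one_mem _
  · refine top_le_iff.1 ?_
    rw [mul_zero, zero_add, upperPSeries_one]
    exact le_pPrimeCore_of_not_dvd inferInstance (by rwa [Subgroup.card_top])

end CfsgLib.HallHigmanB
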