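import Cfsg.Agent.HallHigmanB.Main
import Cfsg.Agent.CoprimeAction.Basic

/-!
A quadratic element of order three is not a commutator of operators acting quadratically on its image.
-/

set_option autoImplicit false
set_option linter.style.haveILetI false
set_option linter.unusedSectionVars false

namespace CfsgLib.HallHigmanB

open scoped commutatorElement

/-- A finite `3`-group permuting at most four points with a fixed point acts abelianly. -/
theorem perm_commute_of_card {Ω : Type*} [Finite Ω] (ω : Ω) (h4 : Nat.card Ω ≤ 4) {B : Type*} [Group B]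
    (hB : IsPGroup 3 B) (ψ : B →* Equiv.Perm Ω) (hfix : ∀ b, ψ b ω = ω) (a b : B) : Commute (ψ a) (ψ b) := by
  classical
  haveI := Fintype.ofFinite Ω
  haveI : Fact (Nat.Prime 3) := ⟨Nat.prime_three⟩
  set R := ψ.range
  have hR : R ≤ MulAction.stabilizer (Equiv.Perm Ω) ω := by
    rintro _ ⟨c, rfl⟩
    exact hfix c
  have hd : Nat.card R ∣ Nat.card {f : Equiv.Perm Ω // f ω = ω} := Subgroup.card_dvd_of_le hR
  rw [← Nat.card_congr (Equiv.Perm.subtypeEquivSubtypePerm (fun u : Ω => u ≠ ω) |>.trans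
    (Equiv.subtypeEquivRight fun f => ⟨fun h => h ω (by simp), fun h u hu => by rw [not_not.1 hu]; exact h⟩)),
    Nat.card_perm] at hd
  have hn : Nat.card {u : Ω // u ≠ ω} ≤ 3 := by
    rw [Nat.card_eq_fintype_card, Fintype.card_subtype_compl, Fintype.card_subtype_eq]
    rw [Nat.card_eq_fintype_card] at h4
    omega
  have h6 : Nat.card R ∣ 6 := hd.trans (Nat.factorial_dvd_factorial hn)
  have hRp : IsPGroup 3 R := hB.of_surjective ψ.rangeRestrict ψ.rangeRestrict_surjective
  obtain ⟨i, hi⟩ := IsPGroup.iff_card.1 hRp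
  have hi1 : i ≤ 1 := by
    by_contra hi2
    have h9 : 3 ^ 2 ∣ 6 := (pow_dvd_pow 3 (by omega : 2 ≤ i)).trans (hi ▸ h6)
    norm_num at h9
  have hab : ∀ u v : R, u * v = v * u := by
    haveI : IsCyclic R := by
      rcases Nat.le_one_iff_eq_zero_or_eq_one.1 hi1 with rfl | rfl
      · haveI : Subsingleton R := (Nat.card_eq_one_iff_unique.1 (by rw [hi, pow_zero])).1
        infer_instance
      · exact isCyclic_of_prime_card (p := 3) (by rw [hi, pow_one])
    letI := IsCyclic.commGroup (α := R)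
    exact mul_comm
  exact congrArg Subtype.val (hab ⟨_, a, rfl⟩ ⟨_, b, rfl⟩)

variable {k : Type*} [Field k] [CharP k 3] [IsAlgClosed k] {G : Type*} [Group G] [Finite G] {V : Type*}
  [AddCommGroup V] [Module k V] [FiniteDimensional k V] (ρ : G →* Module.End k V)

theorem quadratic_commutator_false (hρ : Function.Injective ρ) (B Q₀ : Subgroup G) (z : G) {q : ℕ}
    (hq : q.Prime) (hq3 : q ≠ 3) (hQ₀ : IsPGroup q Q₀) (hB : IsPGroup 3 B) (hzB : z ∈ ⁅B, B⁆) (hz3 : z ^ 3 = 1)
    (hzc : ∀ b ∈ B, z * b = b * z) (hBQ₀ : B ≤ Subgroup.normalizer (Q₀ : Set G))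
    (hQ₀z : ¬ Q₀ ≤ Subgroup.centralizer ({z} : Set G)) (h2 : (ρ z - 1) ^ 2 = 0)
    (hb : ∀ b ∈ B, (ρ b - 1) ^ 2 * (ρ z - 1) = 0) : False := by
  classical
  haveI : Fact (Nat.Prime 3) := ⟨Nat.prime_three⟩
  haveI : CharP (Module.End k V) 3 := by
    haveI : Nontrivial (Module.End k V) := by
      refine ⟨ρ z, 1, fun h => hQ₀z fun a _ => Subgroup.mem_centralizer_singleton_iff.2 ?_⟩
      rw [hρ (h.trans (map_one ρ).symm), mul_one, one_mul]
    exact charP_of_injective_algebraMap (algebraMap k (Module.End k V)).injective 3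
  -- a minimal invariant subgroup
  obtain ⟨Q, ⟨hQQ₀, hBQ, hQz⟩, hmin⟩ := (Set.toFinite {Q : Subgroup G | Q ≤ Q₀ ∧
      B ≤ Subgroup.normalizer (Q : Set G) ∧ ¬ Q ≤ Subgroup.centralizer ({z} : Set G)}).exists_minimal
    ⟨Q₀, le_rfl, hBQ₀, hQ₀z⟩
  have hQ : IsPGroup q Q := hQ₀.to_le hQQ₀
  haveI := Fact.mk hq
  set Z := Subgroup.zpowers z
  have hzB' : z ∈ B := (Subgroup.commutator_le.2 fun a ha b hb => by
    rw [commutatorElement_def]
    exact B.mul_mem (B.mul_mem (B.mul_mem ha hb) (B.inv_mem ha)) (B.inv_mem hb)) hzB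
  have hZQ : Z ≤ Subgroup.normalizer (Q : Set G) := Subgroup.zpowers_le.2 (hBQ hzB')
  have hQ3 : ¬ 3 ∣ Nat.card Q := by
    obtain ⟨i, hi⟩ := IsPGroup.iff_card.1 hQ
    rw [hi]
    exact fun hd => hq3 ((Nat.prime_dvd_prime_iff_eq Nat.prime_three hq).1 (Nat.prime_three.dvd_of_dvd_pow hd)).symm
  have hsmall : ∀ D : Subgroup G, D ≤ Q → D ≠ Q → B ≤ Subgroup.normalizer (D : Set G) →
      D ≤ Subgroup.centralizer ({z} : Set G) := fun D hD hne hBD => by
    by_contra h
    exact (lt_of_le_of_ne hD hne).not_ge (hmin (y := D) ⟨hD.trans hQQ₀, hBD, h⟩ hD)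
  have hZc : ∀ D : Subgroup G, D ≤ Subgroup.centralizer ({z} : Set G) → ⁅D, Z⁆ = ⊥ := fun D hD => by
    rw [Subgroup.commutator_eq_bot_iff_le_centralizer]
    exact fun d hd => Subgroup.mem_centralizer_iff.2 fun w hw => by
      obtain ⟨i, rfl⟩ := Subgroup.mem_zpowers_iff.1 hw
      exact (Commute.zpow_left (Subgroup.mem_centralizer_singleton_iff.1 (hD hd)).symm i).eq
  have hQZ : ⁅Q, Z⁆ = Q := by
    by_contra hne
    have hle := CfsgLib.CoprimeAction.commutator_le_of_normalizer hZQ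
    have hBZ : B ≤ Subgroup.normalizer ((⁅Q, Z⁆ : Subgroup G) : Set G) := by
      intro b hb'
      have hbZ : b ∈ Subgroup.normalizer (Z : Set G) := by
        refine Subgroup.mem_normalizer_fintype fun w hw => ?_
        obtain ⟨i, rfl⟩ := Subgroup.mem_zpowers_iff.1 hw
        rw [← ((Commute.zpow_left (hzc b hb') i).eq), mul_inv_cancel_right]
        exact Z.zpow_mem (Subgroup.mem_zpowers z) i
      rw [Subgroup.mem_normalizer_iff_map_conj_eq, Subgroup.map_commutator,
        Subgroup.mem_normalizer_iff_map_conj_eq.1 (hBQ hb'), Subgroup.mem_normalizer_iff_map_conj_eq.1 hbZ]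
    have h1 := hZc _ (hsmall _ hle hne hBZ)
    rw [CfsgLib.CoprimeAction.commutator_commutator_eq hZQ (by
      rw [Nat.card_zpowers]
      exact Nat.Coprime.coprime_dvd_left (orderOf_dvd_of_pow_eq_one hz3)
        (Nat.prime_three.coprime_iff_not_dvd.2 hQ3))
      (Or.inl (Group.isSolvable_of_comm fun a b => by
          let _ := IsCyclic.commGroup (α := Z)
          exact mul_comm a b))] at h1
    exact hQz fun a ha => Subgroup.mem_centralizer_singleton_iff.2
      (Subgroup.mem_centralizer_iff.1 ((Subgroup.commutator_eq_bot_iff_le_centralizer.1 h1) ha) z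
        (Subgroup.mem_zpowers z)).symm
  have hder : ⁅Q, Q⁆ ≤ Subgroup.centralizer ({z} : Set G) := by
    refine hsmall _ (Subgroup.commutator_le.2 fun a ha b hb => ?_) (fun h => ?_) (fun b hb => ?_)
    · rw [commutatorElement_def]; exact Q.mul_mem (Q.mul_mem (Q.mul_mem ha hb) (Q.inv_mem ha)) (Q.inv_mem hb)
    · haveI := hQ.isNilpotent
      haveI : Nontrivial Q := Q.nontrivial_iff_ne_bot.2 fun h0 => hQz (h0 ▸ bot_le)
      refine (Group.IsSolvable.commutator_lt_top_of_nontrivial Q).ne (Subgroup.map_injective Q.subtype_injective ?_)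
      rw [Subgroup.map_subtype_commutator, h, ← MonoidHom.range_eq_map, Q.range_subtype]
    · rw [Subgroup.mem_normalizer_iff_map_conj_eq, Subgroup.map_commutator,
        Subgroup.mem_normalizer_iff_map_conj_eq.1 (hBQ hb)]
  -- a simple submodule
  set H := Q ⊔ Z with hH
  have hHn : H ≤ Subgroup.normalizer (Q : Set G) := sup_le Subgroup.le_normalizer hZQ
  have hBH : B ≤ Subgroup.normalizer (H : Set G) := fun b hb => by
    rw [Subgroup.mem_normalizer_iff_map_conj_eq, hH, Subgroup.map_sup,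
      Subgroup.mem_normalizer_iff_map_conj_eq.1 (hBQ hb), MonoidHom.map_zpowers]
    refine congrArg (fun w => Q ⊔ Subgroup.zpowers w) ?_
    show b * z * b⁻¹ = z
    rw [← hzc b hb, mul_inv_cancel_right]
  have hQk : (Nat.card Q : k) ≠ 0 := fun h0 => hQ3 ((CharP.cast_eq_zero_iff k 3 _).1 h0)
  obtain ⟨W, hW, hWnt⟩ : ∃ W, SimpleSub ρ H W ∧ ¬ ∀ a ∈ Q, ∀ u ∈ W, ρ a u = u := by
    haveI := Fintype.ofFinite Q
    set X := Submodule.span k (Set.range fun z : Q × V => ρ (z.1 : G) z.2 - z.2)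
    have hX : Inv ρ H X := by
      intro g hg v hv
      induction hv using Submodule.span_induction with
      | mem v hv =>
        obtain ⟨⟨b, w⟩, rfl⟩ := hv
        refine Submodule.subset_span ⟨(⟨g * b * g⁻¹, (Subgroup.mem_normalizer_iff.1 (hHn hg) b).1 b.2⟩, ρ g w), ?_⟩
        show ρ (g * b * g⁻¹) (ρ g w) - ρ g w = ρ g (ρ (b : G) w - w)
        rw [map_sub, ← Module.End.mul_apply, ← map_mul, inv_mul_cancel_right, map_mul, Module.End.mul_apply]
      | zero => simp
      | add u w _ _ hu hw => rw [map_add]; exact add_mem hu hw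
      | smul c u _ hu => rw [map_smul]; exact Submodule.smul_mem _ c hu
    have hX0 : X ≠ ⊥ := fun h0 => hQz fun a ha => by
      have h1 : ρ a = 1 := LinearMap.ext fun v => sub_eq_zero.1 ((Submodule.eq_bot_iff X).1 h0 _
        (Submodule.subset_span ⟨(⟨a, ha⟩, v), rfl⟩))
      rw [show a = 1 from hρ (h1.trans (map_one ρ).symm)]
      exact Subgroup.one_mem _
    obtain ⟨U, hU, hUX⟩ := exists_simple_le hX hX0
    refine ⟨U, hU, fun hall => hU.2.1 ((Submodule.eq_bot_iff U).2 fun u hu => ?_)⟩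
    let P : V →ₗ[k] V := ∑ a : Q, ρ (a : G)
    have hP : X ≤ LinearMap.ker P := by
      rw [Submodule.span_le]
      rintro _ ⟨⟨b, w⟩, rfl⟩
      simp only [SetLike.mem_coe, LinearMap.mem_ker, map_sub, sub_eq_zero, P, LinearMap.sum_apply]
      exact Fintype.sum_equiv (Equiv.mulRight b) _ _ fun a => by simp
    have h1 : P u = (Nat.card Q : k) • u := by
      simp only [P, LinearMap.sum_apply, Nat.card_eq_fintype_card]
      rw [Finset.sum_congr rfl (fun (a : Q) _ => hall (a : G) a.2 u hu), Finset.sum_const, Finset.card_univ,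
        Nat.cast_smul_eq_nsmul]
    rw [LinearMap.mem_ker.1 (hP (hUX hu))] at h1
    exact (smul_eq_zero.1 h1.symm).resolve_left hQk
  have hzH : z ∈ H := Subgroup.mem_sup_right (Subgroup.mem_zpowers z)
  have hQH : Q ≤ H := le_sup_left
  -- it stays simple for `Q`
  have hWQ : SimpleSub ρ Q W := by
    obtain ⟨U, hU, hUW⟩ := exists_simple_le (fun g hg => hW.1 g (hQH hg) : Inv ρ Q W) hW.2.1
    have hzN : z ∈ Subgroup.normalizer (Q : Set G) := hHn hzH
    have hiso : Iso ρ Q U (U.map (ρ z)) := by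
      by_contra hno
      set T : Fin 2 → Submodule k V := fun i => U.map (ρ (z ^ ((i : ℕ) + 1)))
      have hd := inf_sup_eq_bot (U := T) (fun i => simple_map hU (Subgroup.pow_mem _ hzN _)) hU Finset.univ
        fun i _ h => hno (by
          fin_cases i
          · simpa [T] using h
          · have h1 := iso_map hU.1 h hzN
            rw [map_rho_mul, show z * z ^ (1 + 1) = 1 by rw [← pow_succ']; exact hz3, map_one,
              Module.End.one_eq_id, Submodule.map_id] at h1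
            exact iso_symm (simple_map hU hzN).1 h1)
      obtain ⟨u, hu, hu0⟩ := (Submodule.ne_bot_iff U).1 hU.2.1
      refine hu0 ((Submodule.eq_bot_iff _).1 hd u ⟨hu, ?_⟩)
      have h3 : (1 + ρ z + ρ z ^ 2 : Module.End k V) u = 0 := by
        have := geom_sum_eq_sub_one_pow (k := k) (p := 3) (ρ z) 1
        simp only [pow_one, Finset.sum_range_succ, Finset.sum_range_zero, zero_add, pow_zero] at this
        rw [this, h2, LinearMap.zero_apply]
      simp only [LinearMap.add_apply, Module.End.one_apply, add_assoc] at h3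
      rw [eq_neg_of_add_eq_zero_left h3]
      refine Submodule.neg_mem _ (Submodule.add_mem _ ?_ ?_)
      · exact Finset.le_sup (f := T) (Finset.mem_univ 0) ⟨u, hu, by simp⟩
      · exact Finset.le_sup (f := T) (Finset.mem_univ 1) ⟨u, hu, by simp [← map_pow]⟩
    obtain ⟨U₀, hU₀, hU₀W, -, hU₀z⟩ := exists_invariant hU hzN hiso hUW
      (by rintro _ ⟨w, hw, rfl⟩; exact hW.1 z hzH w hw)
    have hinv : Inv ρ H U₀ := by
      have hle : H ≤ stab ρ U₀ := sup_le (fun a ha => Submodule.eq_of_le_of_finrank_le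
        (by rintro _ ⟨v, hv, rfl⟩; exact hU₀.1 a ha v hv) (finrank_map_rho a U₀).ge) (Subgroup.zpowers_le.2 hU₀z)
      intro g hg v hv
      have : U₀.map (ρ g) = U₀ := hle hg
      exact this.le ⟨v, hv, rfl⟩
    rw [← (hW.2.2 U₀ hinv hU₀W).resolve_left hU₀.2.1]
    exact hU₀
  -- the image on `W`
  haveI : Nontrivial W := Submodule.nontrivial_iff_ne_bot.2 hW.2.1
  haveI : CharP (Module.End k W) 3 := charP_of_injective_algebraMap (algebraMap k (Module.End k W)).injective 3
  set S := stab ρ W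
  have hHS : H ≤ S := fun a ha => Submodule.eq_of_le_of_finrank_le
    (by rintro _ ⟨v, hv, rfl⟩; exact hW.1 a ha v hv) (finrank_map_rho a W).ge
  set θ : S →* (Module.End k W)ˣ := (restr ρ W).toHomUnits with hθ
  have hθv : ∀ (a : S) (v : W), (((θ a : (Module.End k W)ˣ) : Module.End k W) v : V) = ρ (a : G) v := fun a v => rfl
  let zs : S := ⟨z, hHS hzH⟩
  set T := θ zs
  set Qb := (Q.subgroupOf S).map θ
  haveI : Finite Qb := Finite.of_surjective
    (fun a : Q.subgroupOf S => (⟨θ a, a, a.2, rfl⟩ : Qb)) fun ⟨_, a, ha, e⟩ => ⟨⟨a, ha⟩, Subtype.ext e⟩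
  have hTQ : ∀ a ∈ Qb, T * a * T⁻¹ ∈ Qb := by
    rintro _ ⟨a, ha, rfl⟩
    exact ⟨zs * a * zs⁻¹, (Subgroup.mem_normalizer_iff.1 (hHn hzH) _).1 ha, by simp [T]⟩
  have hT3 : T ^ 3 ^ 1 = 1 := by
    rw [← map_pow, show zs ^ 3 ^ 1 = 1 from Subtype.ext (by simpa using hz3), map_one]
  have hgen : ∀ C : Subgroup (Module.End k W)ˣ, (∀ a ∈ Qb, T * a * T⁻¹ * a⁻¹ ∈ C) →
      ∀ a : S, (a : G) ∈ Q → θ a ∈ C := by
    intro C hC a ha
    have h1 : ⁅Q, Z⁆ ≤ (C.comap θ).map S.subtype := by
      rw [Subgroup.commutator_le]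
      intro b hb w hw
      let bs : S := ⟨b, hHS (hQH hb)⟩
      let ws : S := ⟨w, hHS (Subgroup.mem_sup_right hw)⟩
      refine ⟨⁅bs, ws⁆, ?_, map_commutatorElement S.subtype bs ws⟩
      have hw3 : w = 1 ∨ w = z ∨ w = z ^ 2 := by
        obtain ⟨i, rfl⟩ := Subgroup.mem_zpowers_iff.1 hw
        have hi : z ^ i = z ^ (i % 3) := by
          conv_lhs => rw [← Int.emod_add_mul_ediv i 3, zpow_add, zpow_mul, show z ^ (3 : ℤ) = 1 by
            rw [← hz3]; exact zpow_natCast z 3, one_zpow, mul_one]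
        rw [hi]
        have h1 := Int.emod_nonneg i (show (3 : ℤ) ≠ 0 by norm_num)
        have h2 := Int.emod_lt_of_pos i (show (0 : ℤ) < 3 by norm_num)
        interval_cases h : i % 3
        · exact Or.inl (zpow_zero z)
        · exact Or.inr (Or.inl (zpow_one z))
        · exact Or.inr (Or.inr (zpow_natCast z 2))
      have hb' : θ bs ∈ Qb := ⟨bs, hb, rfl⟩
      show θ ⁅bs, ws⁆ ∈ C
      rw [map_commutatorElement, commutatorElement_def]
      rcases hw3 with h | h | h
      · rw [show ws = 1 from Subtype.ext h, map_one]; group; exact C.one_mem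
      · rw [show ws = zs from Subtype.ext h]
        have := C.inv_mem (hC _ hb')
        simpa [mul_assoc] using this
      · rw [show ws = zs ^ 2 from Subtype.ext (by simpa using h), map_pow]
        have h1 := C.inv_mem (hC _ hb')
        have h2 := C.inv_mem (hC _ (hTQ _ hb'))
        have := C.mul_mem h1 h2
        simpa [pow_two, mul_assoc] using this
    obtain ⟨a', ha', e⟩ := h1 (hQZ.symm ▸ ha)
    rw [← Subtype.ext e]
    exact ha'
  have hcard : (Nat.card Qb : k) ≠ 0 := fun h0 => hQ3 (((CharP.cast_eq_zero_iff k 3 _).1 h0).trans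
    ((Subgroup.card_map_dvd _ θ).trans
      (dvd_of_eq (Nat.card_congr (Subgroup.subgroupOfEquivOfLe (hQH.trans hHS)).toEquiv))))
  have hirr : ∀ U : Submodule k W, (∀ a ∈ Qb, ∀ w ∈ U, (a : Module.End k W) w ∈ U) → U = ⊥ ∨ U = ⊤ := by
    intro U hU
    have hinv : Inv ρ Q (U.map W.subtype) := by
      rintro a ha _ ⟨w, hw, rfl⟩
      exact ⟨_, hU _ ⟨⟨a, hHS (hQH ha)⟩, ha, rfl⟩ w hw, rfl⟩
    rcases hWQ.2.2 _ hinv (Submodule.map_subtype_le _ _) with h1 | h1
    · exact Or.inl (Submodule.map_injective_of_injective W.subtype_injective (h1.trans (Submodule.map_bot _).symm))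
    · exact Or.inr (Submodule.map_injective_of_injective W.subtype_injective
        (h1.trans (Submodule.map_subtype_top W).symm))
  have hscal : ∀ a : (Module.End k W)ˣ, (∀ b ∈ Qb, b * a = a * b) →
      ∃ c : k, (a : Module.End k W) = c • (1 : Module.End k W) := fun a ha =>
    scalar_of_commute ((fun z : (Module.End k W)ˣ => (z : Module.End k W)) '' (Qb : Set _))
      (fun U hU => hirr U fun z hz => hU _ ⟨z, hz, rfl⟩)
      (by rintro _ ⟨b, hb, rfl⟩; exact congrArg Units.val (ha b hb))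
  have hdT : ∀ a ∈ Qb, ∀ b ∈ Qb, Commute T ⁅a, b⁆ := by
    rintro _ ⟨a, ha, rfl⟩ _ ⟨b, hb, rfl⟩
    rw [← map_commutatorElement]
    have h1 := Subgroup.mem_centralizer_singleton_iff.1 (hder (Subgroup.commutator_mem_commutator ha hb))
    exact (show Commute zs ⁅a, b⁆ from Subtype.ext (by
      show z * ((⁅a, b⁆ : S) : G) = ((⁅a, b⁆ : S) : G) * z
      rw [show ((⁅a, b⁆ : S) : G) = ⁅(a : G), (b : G)⁆ from map_commutatorElement S.subtype a b]
      exact h1.symm)).map θ
  have hcen : ∀ a ∈ Qb, Commute T a → ∀ b ∈ Qb, b * a = a * b := by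
    intro a ha hTa b hb
    have hb2 := hgen (Subgroup.centralizer {a}) (fun b hb => by
      refine Subgroup.mem_centralizer_singleton_iff.2 ?_
      set d := b⁻¹ * a * b
      have hd : Commute T d := by
        have h1 : d = ⁅b⁻¹, a⁆ * a := by simp only [d, commutatorElement_def]; group
        rw [h1]
        exact (hdT _ (Qb.inv_mem hb) _ ha).mul_right hTa
      calc T * b * T⁻¹ * b⁻¹ * a = T * b * (T⁻¹ * d) * b⁻¹ := by simp only [d]; group
        _ = T * b * (d * T⁻¹) * b⁻¹ := by rw [hd.inv_left.eq]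
        _ = (T * a) * (b * T⁻¹ * b⁻¹) := by simp only [d]; group
        _ = (a * T) * (b * T⁻¹ * b⁻¹) := by rw [hTa.eq]
        _ = a * (T * b * T⁻¹ * b⁻¹) := by group)
    obtain ⟨b, hb', rfl⟩ := hb
    exact Subgroup.mem_centralizer_singleton_iff.1 (hb2 b hb')
  have hT1 : T ≠ 1 := fun h1 => hWnt fun a ha u hu => by
    have h2 := hgen ⊥ (fun b _ => by rw [h1]; simp) ⟨a, hHS (hQH ha)⟩ ha
    have h3 := congrArg (fun f : (Module.End k W)ˣ => (((f : Module.End k W) ⟨u, hu⟩ : W) : V))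
      (Subgroup.mem_bot.1 h2)
    exact h3
  have hN2 : ((T : Module.End k W) - 1) ^ 2 = 0 := LinearMap.ext fun v => Subtype.ext (by
    rw [pow_two, Module.End.mul_apply]
    exact (congrArg (fun f : Module.End k V => f v) (pow_two (ρ z - 1))).symm.trans (LinearMap.congr_fun h2 (v : V)))
  have hN1 : ((T : Module.End k W) - 1) ^ (2 - 1) ≠ 0 := fun h0 => hT1 (Units.ext (sub_eq_zero.1 (by simpa using h0)))
  obtain ⟨-, hdim⟩ := critical (p := 3) Qb hcard hirr T hTQ 1 hT3 hT1 (fun a ha i hi hi3 hcomm => by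
      refine hscal a (hcen a ha ?_)
      rw [pow_one] at hi3
      obtain rfl | rfl : i = 1 ∨ i = 2 := by omega
      · rw [pow_one] at hcomm; exact hcomm
      · have h4 : Commute (T ^ 2) a := hcomm
        have h5 := h4.pow_left 2
        rwa [← pow_mul, show 2 * 2 = 3 ^ 1 + 1 by norm_num, pow_succ, hT3, one_mul] at h5) 2 hN2 hN1
  have hdim2 : Module.finrank k W = 2 := hdim (by norm_num)
  -- the scalars
  let Z₀ : Subgroup Q := {
    carrier := {a | ∃ c : k, ∀ w ∈ W, ρ (a : G) w = c • w}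
    one_mem' := ⟨1, fun w _ => by simp⟩
    mul_mem' := by
      rintro a b ⟨c, hc⟩ ⟨d, hd⟩
      exact ⟨d * c, fun w hw => by
        rw [Subgroup.coe_mul, map_mul, Module.End.mul_apply, hd w hw, map_smul, hc w hw, smul_smul]⟩
    inv_mem' := by
      rintro a ⟨c, hc⟩
      refine ⟨c⁻¹, fun w hw => ?_⟩
      obtain ⟨u, hu, rfl⟩ : ∃ u ∈ W, ρ (a : G) u = w := by
        have h1 : W.map (ρ (a : G)) = W := hHS (hQH a.2)
        exact h1.ge hw
      have h2 : ((a⁻¹ : Q) : G) = (a : G)⁻¹ := rfl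
      rw [h2, inv_apply_apply, hc u hu, smul_smul, inv_mul_cancel₀ (fun h0 => ?_), one_smul]
      obtain ⟨v, hv, hv0⟩ := (Submodule.ne_bot_iff W).1 hW.2.1
      have h3 := hc v hv
      rw [h0, zero_smul] at h3
      exact hv0 (rho_injective (ρ := ρ) (a : G) (h3.trans (map_zero _).symm)) }
  have hscal' : ∀ a : S, (a : G) ∈ Q → (∃ c : k, (θ a : Module.End k W) = c • (1 : Module.End k W)) →
      ∀ h : (a : G) ∈ Q, (⟨a, h⟩ : Q) ∈ Z₀ := by
    rintro a - ⟨c, hc⟩ h
    exact ⟨c, fun w hw => congrArg (fun f : Module.End k W => ((f ⟨w, hw⟩ : W) : V)) hc⟩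
  let toQb : Q → (Module.End k W)ˣ := fun a => θ ⟨a, hHS (hQH a.2)⟩
  have htoQb : ∀ a b : Q, toQb (a * b) = toQb a * toQb b := fun a b => map_mul θ (⟨a, hHS (hQH a.2)⟩ : S) ⟨b, hHS (hQH b.2)⟩
  have htr : ∀ a : Q, a ∉ Z₀ → LinearMap.trace k W (toQb a : Module.End k W) = 0 := by
    intro a ha
    have haQ : toQb a ∈ Qb := ⟨⟨a, hHS (hQH a.2)⟩, a.2, rfl⟩
    obtain ⟨b, hb, hab⟩ : ∃ b ∈ Qb, b * toQb a ≠ toQb a * b := by
      by_contra hall
      push Not at hall
      exact ha (hscal' _ a.2 (hscal _ hall) a.2)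
    obtain ⟨d, hd⟩ := hscal ⁅b, toQb a⁆ (hcen _ (by
      rw [commutatorElement_def]
      exact Qb.mul_mem (Qb.mul_mem (Qb.mul_mem hb haQ) (Qb.inv_mem hb)) (Qb.inv_mem haQ)) (hdT b hb _ haQ))
    set A : Module.End k W := (toQb a : Module.End k W)
    have h1 : (b : Module.End k W) * A * ((b⁻¹ : (Module.End k W)ˣ) : Module.End k W) = d • A := by
      have e : b * toQb a * b⁻¹ = ⁅b, toQb a⁆ * toQb a := by rw [commutatorElement_def]; group
      calc _ = ((⁅b, toQb a⁆ * toQb a : (Module.End k W)ˣ) : Module.End k W) := by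
            rw [← e, Units.val_mul, Units.val_mul]
        _ = d • A := by rw [Units.val_mul, hd, smul_mul_assoc, one_mul]
    have hd1 : d ≠ 1 := by
      rintro rfl
      refine hab ?_
      rw [one_smul] at hd
      exact commutatorElement_eq_one_iff_mul_comm.1 (Units.ext hd)
    have h2 := congrArg (LinearMap.trace k W) h1
    rw [LinearMap.trace_mul_comm, ← mul_assoc, Units.inv_mul, one_mul, map_smul, smul_eq_mul] at h2
    rcases mul_eq_zero.1 (show (d - 1) * LinearMap.trace k W A = 0 by rw [sub_mul, one_mul, ← h2, sub_self]) with h | h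
    · exact absurd (sub_eq_zero.1 h) hd1
    · exact h
  have h2k : (2 : k) ≠ 0 := by
    intro h
    have := (CharP.cast_eq_zero_iff k 3 2).1 (by exact_mod_cast h)
    norm_num at this
  haveI hZn : Z₀.Normal := by
    refine ⟨?_⟩
    rintro a ⟨c, hc⟩ g
    refine ⟨c, fun w hw => ?_⟩
    obtain ⟨u, hu, rfl⟩ : ∃ u ∈ W, ρ (g : G) u = w := by
      have h1 : W.map (ρ (g : G)) = W := hHS (hQH g.2)
      exact h1.ge hw
    rw [show ((g * a * g⁻¹ : Q) : G) = (g : G) * a * (g : G)⁻¹ from rfl, map_mul, map_mul, Module.End.mul_apply,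
      Module.End.mul_apply, inv_apply_apply, hc u hu, map_smul]
  have h4 : Nat.card (Q ⧸ Z₀) ≤ 4 := by
    haveI := Fintype.ofFinite (Q ⧸ Z₀)
    let r : Q ⧸ Z₀ → Module.End k W := fun u => (toQb u.out : Module.End k W)
    have hli : LinearIndependent k r := by
      rw [Fintype.linearIndependent_iff]
      intro c hc j
      have h1 := congrArg (fun f => LinearMap.trace k W ((toQb (j.out)⁻¹ : Module.End k W) * f)) hc
      simp only [mul_zero, map_zero, Finset.mul_sum, map_sum, mul_smul_comm, map_smul, smul_eq_mul, r] at h1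
      rw [Finset.sum_eq_single j (fun i _ hij => ?_) (by simp)] at h1
      · rw [← Units.val_mul, ← htoQb, inv_mul_cancel, show toQb 1 = 1 from map_one θ, Units.val_one,
          LinearMap.trace_one, hdim2] at h1
        exact (mul_eq_zero.1 h1).resolve_right (by exact_mod_cast h2k)
      · rw [← Units.val_mul, ← htoQb, htr _ (fun h => hij ?_), mul_zero]
        rw [← QuotientGroup.out_eq' i, ← QuotientGroup.out_eq' j]
        exact ((QuotientGroup.eq (s := Z₀)).2 h).symm
    have := hli.fintype_card_le_finrank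
    rw [Nat.card_eq_fintype_card]
    rwa [Module.finrank_linearMap, hdim2] at this
    
  -- `B` fixes the class of `W`
  have hclass : ∀ b ∈ B, Iso ρ H W (W.map (ρ b)) := by
    intro b hb'
    by_contra hno
    have hbN := hBH hb'
    have hbN' : b ^ 2 ∈ Subgroup.normalizer (H : Set G) := Subgroup.pow_mem _ hbN 2
    have hno2 : ¬ Iso ρ H W (W.map (ρ (b ^ 2))) := by
      intro h
      obtain ⟨i, hi⟩ := hB ⟨b, hb'⟩
      have hmul : ∀ j : ℕ, Iso ρ H W (W.map (ρ ((b ^ 2) ^ j))) := by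
        intro j
        induction j with
        | zero => rw [pow_zero, map_one, Module.End.one_eq_id, Submodule.map_id]; exact iso_refl H W
        | succ j IH =>
          have h1 := iso_map hW.1 IH hbN'
          rw [map_rho_mul, ← pow_succ'] at h1
          exact iso_trans h h1
      have hj : (b ^ 2) ^ ((3 ^ i + 1) / 2) = b := by
        have hodd : (3 ^ i) % 2 = 1 := by rw [Nat.pow_mod]; simp
        rw [← pow_mul, show 2 * ((3 ^ i + 1) / 2) = 3 ^ i + 1 by omega, pow_succ,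
          show b ^ 3 ^ i = 1 from congrArg Subtype.val hi, one_mul]
      exact hno (hj ▸ hmul _)
    set U : Fin 2 → Submodule k V := fun i => W.map (ρ (b ^ ((i : ℕ) + 1)))
    have hd := inf_sup_eq_bot (U := U) (fun i => simple_map hW (Subgroup.pow_mem _ hbN _)) hW Finset.univ
      fun i _ h => by
        fin_cases i
        · exact hno (by simpa [U] using h)
        · exact hno2 (by simpa [U] using h)
    obtain ⟨v, hv⟩ := not_forall.1 fun hall : ∀ v : W, ((T : Module.End k W) - 1) v = 0 =>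
      hN1 (by rw [show (2 : ℕ) - 1 = 1 from rfl, pow_one]; exact LinearMap.ext hall)
    set w : V := ((((T : Module.End k W) - 1) v : W) : V) with hw
    have hwW : w ∈ W := SetLike.coe_mem _
    refine hv (Subtype.ext ((Submodule.eq_bot_iff _).1 hd w ⟨hwW, ?_⟩))
    have h1 := LinearMap.congr_fun (hb b hb') (v : V)
    rw [Module.End.mul_apply, show (ρ z - 1) (v : V) = w from rfl, pow_two, Module.End.mul_apply,
      LinearMap.sub_apply, Module.End.one_apply, LinearMap.sub_apply, Module.End.one_apply, map_sub,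
      ← Module.End.mul_apply, ← map_mul, ← pow_two, LinearMap.zero_apply] at h1
    have h2 : w = ρ b w + ρ b w - ρ (b ^ 2) w := by
      rw [← sub_eq_zero, ← h1]; abel
    rw [h2]
    have hb1 : ρ b w ∈ Finset.univ.sup U := Finset.le_sup (f := U) (Finset.mem_univ 0) ⟨w, hwW, by simp⟩
    exact Submodule.sub_mem _ (Submodule.add_mem _ hb1 hb1)
      (Finset.le_sup (f := U) (Finset.mem_univ 1) ⟨w, hwW, by simp⟩)
  have hZB : ∀ b : B, ∀ a : Q, a ∈ Z₀ → (⟨(b : G) * a * (b : G)⁻¹,
      (Subgroup.mem_normalizer_iff.1 (hBQ b.2) _).1 a.2⟩ : Q) ∈ Z₀ := by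
    rintro b a ⟨c, hc⟩
    refine ⟨c, fun w hw => ?_⟩
    obtain ⟨f, hf, hfi, hfr⟩ := hclass ((b : G)⁻¹) (B.inv_mem b.2)
    have hbw : ρ ((b : G)⁻¹) w ∈ LinearMap.range f := hfr.symm ▸ ⟨w, hw, rfl⟩
    obtain ⟨u, hu⟩ := hbw
    have h1 := hf (a : G) (hQH a.2) u (c • u) (by rw [SetLike.val_smul, hc u u.2])
    rw [map_smul, hu] at h1
    show ρ ((b : G) * a * (b : G)⁻¹) w = c • w
    rw [map_mul, map_mul, Module.End.mul_apply, Module.End.mul_apply, ← h1, map_smul, apply_inv_apply]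
  let cj : B → Q →* Q := fun b => ((MulAut.conj (b : G)).toMonoidHom.comp Q.subtype).codRestrict Q
    fun a => (Subgroup.mem_normalizer_iff.1 (hBQ b.2) a).1 a.2
  let act : B → Q ⧸ Z₀ → Q ⧸ Z₀ := fun b => QuotientGroup.map Z₀ Z₀ (cj b) fun a ha => hZB b a ha
  have hact1 : ∀ u, act 1 u = u := fun u => by
    obtain ⟨a, rfl⟩ := QuotientGroup.mk'_surjective Z₀ u
    refine congrArg (QuotientGroup.mk' Z₀) (Subtype.ext ?_)
    show (1 : G) * a * (1 : G)⁻¹ = a
    group
  have hactm : ∀ b b' u, act (b * b') u = act b (act b' u) := fun b b' u => by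
    obtain ⟨a, rfl⟩ := QuotientGroup.mk'_surjective Z₀ u
    refine congrArg (QuotientGroup.mk' Z₀) (Subtype.ext ?_)
    show ((b : G) * b') * a * ((b : G) * b')⁻¹ = (b : G) * ((b' : G) * a * (b' : G)⁻¹) * (b : G)⁻¹
    group
  letI : MulAction B (Q ⧸ Z₀) := { smul := act, one_smul := hact1, mul_smul := hactm }
  set ψ := MulAction.toPermHom B (Q ⧸ Z₀)
  have hcommψ : ∀ a b : B, Commute (ψ a) (ψ b) :=
    perm_commute_of_card (1 : Q ⧸ Z₀) h4 hB ψ fun b => map_one (QuotientGroup.map Z₀ Z₀ (cj b) fun a ha => hZB b a ha)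
  have hzker : ∀ u : Q ⧸ Z₀, act ⟨z, hzB'⟩ u = u := by
    have hle : ⁅B, B⁆ ≤ ψ.ker.map B.subtype := by
      rw [Subgroup.commutator_le]
      intro a ha b hb
      refine ⟨⁅(⟨a, ha⟩ : B), (⟨b, hb⟩ : B)⁆, ?_, map_commutatorElement B.subtype _ _⟩
      rw [SetLike.mem_coe, MonoidHom.mem_ker, map_commutatorElement, commutatorElement_eq_one_iff_mul_comm]
      exact (hcommψ _ _).eq
    obtain ⟨z', hz', e⟩ := hle hzB
    intro u
    rw [show (⟨z, hzB'⟩ : B) = z' from Subtype.ext e.symm]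
    exact congrArg (fun f : Equiv.Perm (Q ⧸ Z₀) => f u) (MonoidHom.mem_ker.1 hz')
  -- contradiction
  let C₀ : Subgroup (Module.End k W)ˣ := {
    carrier := {f | ∀ b ∈ Qb, b * f = f * b}
    one_mem' := fun b _ => by simp
    mul_mem' := fun {f g} hf hg b hb => by rw [← mul_assoc, hf b hb, mul_assoc, hg b hb, ← mul_assoc]
    inv_mem' := fun {f} hf b hb => (Commute.inv_right (hf b hb)).eq }
  have hall : ∀ a : S, (a : G) ∈ Q → θ a ∈ C₀ := hgen C₀ (by
    rintro _ ⟨a, ha, rfl⟩
    have h1 := hzker (QuotientGroup.mk' Z₀ ⟨a, ha⟩)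
    have h2 := (QuotientGroup.eq (s := Z₀)).1 h1.symm
    obtain ⟨c, hc⟩ := Z₀.inv_mem (hZn.conj_mem _ (Z₀.inv_mem h2) ⟨a, ha⟩)
    have h3 : (θ (zs * a * zs⁻¹ * a⁻¹) : Module.End k W) = c⁻¹⁻¹ • (1 : Module.End k W) := by
      refine LinearMap.ext fun w => Subtype.ext ?_
      rw [inv_inv]
      refine Eq.trans (?_ : _ = ρ (((⟨a, ha⟩ : Q) * (((⟨a, ha⟩ : Q)⁻¹ *
        ⟨z * a * z⁻¹, (Subgroup.mem_normalizer_iff.1 (hBQ hzB') _).1 ha⟩)⁻¹) * (⟨a, ha⟩ : Q)⁻¹)⁻¹ : Q) (w : V))
        (hc w w.2)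
      refine congrArg (fun g : G => ρ g (w : V)) ?_
      show (z * (a : G) * z⁻¹ * (a : G)⁻¹) = _
      simp [mul_assoc]
    intro b _
    rw [show T * θ a * T⁻¹ * (θ a)⁻¹ = θ (zs * a * zs⁻¹ * a⁻¹) by simp [T]]
    refine Units.ext ?_
    rw [Units.val_mul, Units.val_mul, h3, mul_smul_comm,
      smul_mul_assoc, mul_one, one_mul])
  refine hWnt fun a ha u hu => ?_
  have h1 : ∀ b ∈ Qb, T * b * T⁻¹ * b⁻¹ ∈ (⊥ : Subgroup (Module.End k W)ˣ) := by
    intro b hb
    obtain ⟨b', hb', rfl⟩ := hb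
    obtain ⟨c, hc⟩ := hscal _ (hall b' hb')
    refine Subgroup.mem_bot.2 (mul_inv_eq_one.2 (mul_inv_eq_iff_eq_mul.2 (Units.ext ?_)))
    rw [Units.val_mul, Units.val_mul, hc, mul_smul_comm, smul_mul_assoc, mul_one, one_mul]
  exact congrArg (fun f : (Module.End k W)ˣ => (((f : Module.End k W) ⟨u, hu⟩ : W) : V))
    (Subgroup.mem_bot.1 (hgen ⊥ h1 ⟨a, hHS (hQH ha)⟩ ha))

end CfsgLib.HallHigmanB
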