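import Cfsg.Agent.HallHigmanB.Core
import Cfsg.Agent.ExtraFpf.ConjRep

/-!
An element acting with full Jordan block on an elementary abelian subgroup gives a wreath product section.
-/

set_option autoImplicit false
set_option linter.style.haveILetI false

namespace CfsgLib.HallHigmanB

open scoped IsMulCommutative Pointwise

variable {H : Type*} [Group H] [Finite H] {p : ℕ} [hp : Fact p.Prime]

theorem exists_wreath (V : Subgroup H) [IsMulCommutative V] (hexp : ∀ a : V, a ^ p = 1) (x : H)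
    (hxn : x ∈ Subgroup.normalizer (V : Set H)) (hxV : x ∉ V) (hxp : x ^ p ∈ V) (v : H) (hv : v ∈ V)
    (hne : (v * x) ^ p * (x ^ p)⁻¹ ≠ 1) :
    ∃ T : Subgroup H, T ≤ V ⊔ Subgroup.zpowers x ∧ ∃ (W : Type) (_ : Group W) (_ : Finite W),
      (∃ (B : Subgroup W) (t : W), B.Normal ∧ IsMulCommutative B ∧ (∀ b ∈ B, b ^ p = 1) ∧ Nat.card B = p ^ p ∧
        orderOf t = p ∧ t ∉ B ∧ Nat.card W = p ^ (p + 1) ∧
        Nat.card ↥(B ⊓ Subgroup.centralizer ({t} : Set W)) = p) ∧
      ∃ φ : T →* W, Function.Surjective φ := by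
  classical
  haveI : Module (ZMod p) (Additive V) := AddCommGroup.zmodModule (n := p) (G := Additive V) fun a => by
    rw [← ofMul_toMul a, ← ofMul_pow, hexp]
    rfl
  set r := CfsgLib.ExtraFpf.conjRep V p ⟨x, hxn⟩ with hr
  have hrapp : ∀ a : Additive V, ((Additive.toMul (r a) : V) : H) = x * ((Additive.toMul a : V) : H) * x⁻¹ :=
    fun a => rfl
  have hrpow : ∀ (i : ℕ) (a : Additive V),
      ((Additive.toMul ((r ^ i) a) : V) : H) = x ^ i * ((Additive.toMul a : V) : H) * (x ^ i)⁻¹ := by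
    intro i
    induction i with
    | zero => intro a; simp
    | succ i IH => intro a; rw [pow_succ', Module.End.mul_apply, hrapp, IH, pow_succ']; group
  have hsum : ∀ (i : ℕ) (a : Additive V), ((Additive.toMul ((∑ j ∈ Finset.range i, r ^ j) a) : V) : H) =
      (((Additive.toMul a : V) : H) * x) ^ i * (x ^ i)⁻¹ := by
    intro i a
    induction i with
    | zero => simp
    | succ i IH =>
      rw [Finset.sum_range_succ, LinearMap.add_apply, toMul_add, Subgroup.coe_mul, IH, hrpow, pow_succ _ i,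
        pow_succ x i]
      group
  haveI : Nontrivial (Additive V) := by
    refine ⟨⟨Additive.ofMul ⟨v, hv⟩, 0, fun h => hne ?_⟩⟩
    have : v = 1 := congrArg (fun w : Additive V => ((Additive.toMul w : V) : H)) h
    rw [this, one_mul, mul_inv_cancel]
  haveI : CharP (Module.End (ZMod p) (Additive V)) p :=
    charP_of_injective_algebraMap (algebraMap (ZMod p) (Module.End (ZMod p) (Additive V))).injective p
  set D := r - 1 with hD
  have hgeo : ∑ j ∈ Finset.range p, r ^ j = D ^ (p - 1) := by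
    have := geom_sum_eq_sub_one_pow (k := ZMod p) (p := p) r 1
    rwa [pow_one] at this
  set a₀ : Additive V := Additive.ofMul ⟨v, hv⟩ with ha₀
  have htop : (D ^ (p - 1)) a₀ ≠ 0 := fun h => hne (by
    have := hsum p a₀
    rw [hgeo, h] at this
    exact this.symm)
  have hDp : D ^ p = 0 := by
    rw [hD, sub_pow_char_of_commute p (Commute.one_right r), one_pow, sub_eq_zero]
    refine LinearMap.ext fun a => Additive.toMul.injective (Subtype.ext ?_)
    rw [hrpow, Module.End.one_apply]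
    have h1 : x ^ p * ((Additive.toMul a : V) : H) = ((Additive.toMul a : V) : H) * x ^ p :=
      congrArg Subtype.val (IsMulCommutative.is_comm.comm (⟨x ^ p, hxp⟩ : V) (Additive.toMul a))
    rw [h1, mul_inv_cancel_right]
  have hvan : ∀ i, p ≤ i → ∀ a, (D ^ i) a = 0 := fun i hi a => by
    rw [← Nat.sub_add_cancel hi, pow_add, hDp, mul_zero, LinearMap.zero_apply]
  set e : Fin p → Additive V := fun i => (D ^ (i : ℕ)) a₀ with he
  have hind : LinearIndependent (ZMod p) e := by
    rw [Fintype.linearIndependent_iff]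
    intro c hc i
    induction hi : (i : ℕ) using Nat.strong_induction_on generalizing i with
    | _ k IH =>
    subst hi
    have h1 := congrArg (D ^ (p - 1 - (i : ℕ))) hc
    rw [map_sum, map_zero, Finset.sum_eq_single i (fun j _ hj => ?_) (by simp)] at h1
    · rw [map_smul, he, ← Module.End.mul_apply, ← pow_add, Nat.sub_add_cancel (by omega : (i : ℕ) ≤ p - 1)] at h1
      exact (smul_eq_zero.1 h1).resolve_right htop
    · rw [map_smul]
      rcases lt_or_gt_of_ne (Fin.val_ne_of_ne hj) with hlt | hgt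
      · rw [IH _ hlt j rfl, zero_smul]
      · rw [he, ← Module.End.mul_apply, ← pow_add, hvan _ (by omega), smul_zero]
  set Sm := Submodule.span (ZMod p) (Set.range e) with hSm
  have heD : ∀ i : Fin p, D (e i) = (D ^ ((i : ℕ) + 1)) a₀ := fun i => by
    rw [pow_succ', Module.End.mul_apply]
  have hSD : ∀ w ∈ Sm, D w ∈ Sm := by
    intro w hw
    have : Sm ≤ Sm.comap D := by
      rw [hSm, Submodule.span_le]
      rintro _ ⟨i, rfl⟩
      rw [SetLike.mem_coe, Submodule.mem_comap, heD]
      by_cases h : (i : ℕ) + 1 < p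
      · exact Submodule.subset_span ⟨⟨_, h⟩, rfl⟩
      · rw [hvan _ (by omega)]; exact zero_mem _
    exact this hw
  -- the kernel of `D` on `Sm` is a line
  have hline : ∀ w ∈ Sm, D w = 0 → ∃ c : ZMod p, w = c • (D ^ (p - 1)) a₀ := by
    intro w hw hDw
    obtain ⟨c, rfl⟩ := (Submodule.mem_span_range_iff_exists_fun _).1 hw
    have hp1 : p - 1 < p := by have := hp.out.pos; omega
    refine ⟨c ⟨p - 1, hp1⟩, Finset.sum_eq_single (⟨p - 1, hp1⟩ : Fin p) (fun i _ hi => ?_) (by simp)⟩
    have key : ∀ k : ℕ, ∀ i : Fin p, (i : ℕ) = k → k + 1 < p → c i = 0 := by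
      intro k
      induction k using Nat.strong_induction_on with
      | _ k IH =>
      intro i hik hk
      subst hik
      have h1 := congrArg (D ^ (p - 2 - (i : ℕ))) hDw
      rw [← Module.End.mul_apply, ← pow_succ, map_sum, map_zero,
        Finset.sum_eq_single i (fun j _ hj => ?_) (by simp)] at h1
      · rw [map_smul, he, ← Module.End.mul_apply, ← pow_add,
          show p - 2 - (i : ℕ) + 1 + i = p - 1 by omega] at h1
        exact (smul_eq_zero.1 h1).resolve_right htop
      · rw [map_smul]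
        rcases lt_or_gt_of_ne (Fin.val_ne_of_ne hj) with hlt | hgt
        · rw [IH _ hlt j rfl (by omega), zero_smul]
        · rw [he, ← Module.End.mul_apply, ← pow_add, hvan _ (by omega), smul_zero]
    have hi' : (i : ℕ) + 1 < p := by
      have := Fin.val_ne_of_ne hi
      simp only at this
      omega
    rw [key _ i rfl hi', zero_smul]
  set B₀ : Subgroup H := (AddSubgroup.toSubgroup' Sm.toAddSubgroup).map V.subtype with hB₀
  have hmem : ∀ h : H, h ∈ B₀ ↔ ∃ w ∈ Sm, ((Additive.toMul w : V) : H) = h := fun h => by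
    constructor
    · rintro ⟨b, hb, rfl⟩; exact ⟨Additive.ofMul b, hb, rfl⟩
    · rintro ⟨w, hw, rfl⟩; exact ⟨Additive.toMul w, hw, rfl⟩
  have hB₀V : B₀ ≤ V := Subgroup.map_subtype_le _
  have hcomm : ∀ a ∈ V, ∀ b ∈ V, a * b = b * a := fun a ha b hb =>
    congrArg Subtype.val (IsMulCommutative.is_comm.comm (⟨a, ha⟩ : V) ⟨b, hb⟩)
  have hfix : ∀ w : Additive V, D w = 0 ↔ x * ((Additive.toMul w : V) : H) = ((Additive.toMul w : V) : H) * x := by
    intro w
    rw [hD, LinearMap.sub_apply, Module.End.one_apply, sub_eq_zero, ← Additive.toMul.injective.eq_iff,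
      Subtype.ext_iff, hrapp, mul_inv_eq_iff_eq_mul]
  -- the choice of `t`
  obtain ⟨u, hu, htB⟩ : ∃ u ∈ V, (u * x) ^ p ∈ B₀ → (u * x) ^ p = 1 := by
    by_cases hz : x ^ p ∈ B₀
    · obtain ⟨w, hw, hwz⟩ := (hmem _).1 hz
      obtain ⟨c, hc⟩ := hline w hw ((hfix w).2 (by rw [hwz, ← pow_succ, ← pow_succ']))
      refine ⟨((Additive.toMul (-(c • a₀)) : V) : H), (Additive.toMul (-(c • a₀))).2, fun _ => ?_⟩
      have := hsum p (-(c • a₀))
      rw [hgeo, map_neg, map_smul, ← hc, toMul_neg, Subgroup.coe_inv, hwz] at this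
      exact mul_right_cancel (b := (x ^ p)⁻¹) (this.symm.trans (one_mul _).symm)
    · exact ⟨1, one_mem _, fun h => absurd (by rwa [one_mul] at h) hz⟩
  set t := u * x with ht
  have htV : t ∉ V := fun h => hxV (by have := V.mul_mem (V.inv_mem hu) h; rwa [ht, inv_mul_cancel_left] at this)
  have htconj : ∀ b ∈ V, t * b * t⁻¹ = x * b * x⁻¹ := fun b hb => by
    have h1 : x * b * x⁻¹ ∈ V := (Subgroup.mem_normalizer_iff.1 hxn b).1 hb
    rw [ht, show u * x * b * (u * x)⁻¹ = u * (x * b * x⁻¹) * u⁻¹ by group, hcomm u hu _ h1, mul_inv_cancel_right]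
  have htpV : t ^ p ∈ V := by
    have := hsum p (Additive.ofMul ⟨u, hu⟩)
    rw [show ((Additive.toMul (Additive.ofMul (⟨u, hu⟩ : V)) : V) : H) = u from rfl, ← ht,
      eq_mul_inv_iff_mul_eq] at this
    rw [← this]
    exact mul_mem (SetLike.coe_mem _) hxp
  have htp2 : (t ^ p) ^ p = 1 := congrArg Subtype.val (hexp ⟨t ^ p, htpV⟩)
  have htn : ∀ b ∈ B₀, t * b * t⁻¹ ∈ B₀ := fun b hb => by
    obtain ⟨w, hw, rfl⟩ := (hmem _).1 hb
    refine (hmem _).2 ⟨r w, ?_, by rw [hrapp, htconj _ (hB₀V hb)]⟩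
    rw [show r w = D w + w by rw [hD, LinearMap.sub_apply, Module.End.one_apply, sub_add_cancel]]
    exact add_mem (hSD w hw) hw
  have htnorm : t ∈ Subgroup.normalizer (B₀ : Set H) :=
    Subgroup.mem_normalizer_iff.2 fun b => ⟨fun hb => htn b hb, fun hb => by
      have hbij := (Set.toFinite (B₀ : Set H)).injOn_iff_bijOn_of_mapsTo (f := fun b => t * b * t⁻¹) htn
      obtain ⟨b', hb', hbb⟩ := (hbij.1 fun a _ c _ h => by simpa using h).surjOn hb
      have : b' = b := by simpa using hbb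
      rwa [← this]⟩
  set T := B₀ ⊔ Subgroup.zpowers t with hT
  have hTle : T ≤ V ⊔ Subgroup.zpowers x := sup_le (hB₀V.trans le_sup_left) (Subgroup.zpowers_le.2
    (mul_mem (Subgroup.mem_sup_left hu) (Subgroup.mem_sup_right (Subgroup.mem_zpowers x))))
  have hTn : T ≤ Subgroup.normalizer (B₀ : Set H) := sup_le Subgroup.le_normalizer (Subgroup.zpowers_le.2 htnorm)
  set Z := (Subgroup.zpowers (t ^ p)).subgroupOf T with hZ
  have hZc : Z ≤ Subgroup.center T := by
    intro a ha
    rw [Subgroup.mem_center_iff]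
    have h1 : T ≤ Subgroup.centralizer ({t ^ p} : Set H) := by
      refine sup_le (fun b hb => ?_) (Subgroup.zpowers_le.2 ?_)
      · exact Subgroup.mem_centralizer_singleton_iff.2 (hcomm b (hB₀V hb) _ htpV)
      · exact Subgroup.mem_centralizer_singleton_iff.2 ((Commute.refl t).pow_right p)
    intro g
    obtain ⟨i, hi⟩ := Subgroup.mem_zpowers_iff.1 ha
    refine Subtype.ext ?_
    show (g : H) * a = a * g
    rw [show ((a : T) : H) = (t ^ p) ^ i from hi.symm]
    exact Commute.zpow_right (Subgroup.mem_centralizer_singleton_iff.1 (h1 g.2)) i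
  haveI : Z.Normal := ⟨fun a ha g => by rwa [Subgroup.mem_center_iff.1 (hZc ha) g, mul_inv_cancel_right]⟩
  let W := Shrink.{0} (T ⧸ Z)
  let eW : T ⧸ Z ≃* W := (Shrink.mulEquiv : W ≃* T ⧸ Z).symm
  let φ : T →* W := eW.toMonoidHom.comp (QuotientGroup.mk' Z)
  have hφ : Function.Surjective φ := fun y => by
    obtain ⟨a, ha⟩ := QuotientGroup.mk'_surjective Z (eW.symm y)
    exact ⟨a, (congrArg eW ha).trans (eW.apply_symm_apply y)⟩
  have hker : ∀ a : T, φ a = 1 ↔ (a : H) ∈ Subgroup.zpowers (t ^ p) := fun a =>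
    (EmbeddingLike.map_eq_one_iff (f := eW)).trans ((QuotientGroup.eq_one_iff a).trans Subgroup.mem_subgroupOf)
  have hBZ : ∀ b ∈ B₀, b ∈ Subgroup.zpowers (t ^ p) → b = 1 := fun b hb hb' => by
    by_contra hb1
    have hdis : Subgroup.zpowers (t ^ p) ≤ B₀ := by
      have h1 : (Nat.card (Subgroup.zpowers (t ^ p))).Prime := by
        rw [Nat.card_zpowers, orderOf_eq_prime htp2]
        · exact hp.out
        · intro h; rw [h, Subgroup.zpowers_one_eq_bot, Subgroup.mem_bot] at hb'; exact hb1 hb'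
      haveI := Fact.mk h1
      rcases (B₀.subgroupOf (Subgroup.zpowers (t ^ p))).eq_bot_or_eq_top_of_prime_card with h | h
      · have h2 : (⟨b, hb'⟩ : Subgroup.zpowers (t ^ p)) ∈ B₀.subgroupOf (Subgroup.zpowers (t ^ p)) :=
          Subgroup.mem_subgroupOf.2 hb
        rw [h, Subgroup.mem_bot] at h2
        exact absurd (congrArg Subtype.val h2) hb1
      · exact Subgroup.subgroupOf_eq_top.1 h
    rw [htB (hdis (Subgroup.mem_zpowers _)), Subgroup.zpowers_one_eq_bot, Subgroup.mem_bot] at hb'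
    exact hb1 hb'
  let t' : T := ⟨t, Subgroup.mem_sup_right (Subgroup.mem_zpowers t)⟩
  set B := (B₀.subgroupOf T).map φ with hB
  have hBn : B.Normal := (Subgroup.normal_subgroupOf_of_le_normalizer hTn).map φ hφ
  have hZV : Subgroup.zpowers (t ^ p) ≤ V := Subgroup.zpowers_le.2 htpV
  have htB' : φ t' ∉ B := by
    rintro ⟨b, hb, hbt⟩
    have h1 := hZV ((hker (b⁻¹ * t')).1 (by rw [map_mul, map_inv, hbt, inv_mul_cancel]))
    exact htV (by simpa [t'] using V.mul_mem (hB₀V (Subgroup.mem_subgroupOf.1 hb)) h1)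
  have htord : orderOf (φ t') = p := by
    refine orderOf_eq_prime ?_ fun h => htB' (h ▸ one_mem _)
    rw [← map_pow, hker]
    exact Subgroup.mem_zpowers _
  have hinj : Set.InjOn φ (B₀.subgroupOf T : Set T) := fun a ha b hb hab => by
    have h1 := hBZ _ (B₀.mul_mem (B₀.inv_mem (Subgroup.mem_subgroupOf.1 ha)) (Subgroup.mem_subgroupOf.1 hb))
      ((hker (a⁻¹ * b)).1 (by rw [map_mul, map_inv, hab, inv_mul_cancel]))
    exact Subtype.ext (inv_mul_eq_one.1 h1)
  have hcardmap : ∀ K : Subgroup T, K ≤ B₀.subgroupOf T → Nat.card (K.map φ) = Nat.card K := fun K hK => by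
    rw [← SetLike.coe_sort_coe, Subgroup.coe_map, Nat.card_image_of_injOn (hinj.mono hK), SetLike.coe_sort_coe]
  have hcardB₀ : Nat.card B₀ = p ^ p := by
    rw [hB₀, Subgroup.card_map_of_injective V.subtype_injective]
    refine (Nat.card_congr (Additive.ofMul.subtypeEquiv fun a => Iff.rfl)).trans ?_
    show Nat.card Sm = p ^ p
    rw [Module.natCard_eq_pow_finrank (K := ZMod p), finrank_span_eq_card hind, Nat.card_zmod, Fintype.card_fin]
  have hcardB : Nat.card B = p ^ p := by
    rw [hB, hcardmap _ le_rfl, Nat.card_congr (Subgroup.subgroupOfEquivOfLe (le_sup_left : B₀ ≤ T)).toEquiv, hcardB₀]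
  refine ⟨T, hTle, W, inferInstance, inferInstance, ⟨B, φ t', hBn, ⟨⟨?_⟩⟩, ?_, hcardB, htord, htB', ?_, ?_⟩, φ, hφ⟩
  · rintro ⟨_, a, ha, rfl⟩ ⟨_, b, hb, rfl⟩
    refine Subtype.ext ?_
    show φ a * φ b = φ b * φ a
    rw [← map_mul, ← map_mul, show a * b = b * a from Subtype.ext (hcomm _ (hB₀V (Subgroup.mem_subgroupOf.1 ha))
      _ (hB₀V (Subgroup.mem_subgroupOf.1 hb)))]
  · rintro _ ⟨a, ha, rfl⟩
    rw [← map_pow, show a ^ p = 1 from Subtype.ext (by
      rw [SubmonoidClass.coe_pow, OneMemClass.coe_one]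
      exact congrArg Subtype.val (hexp ⟨_, hB₀V (Subgroup.mem_subgroupOf.1 ha)⟩)), map_one]
  · have hdisj : Disjoint B (Subgroup.zpowers (φ t')) := by
      rw [disjoint_iff]
      by_contra hne'
      haveI : Fact (Nat.card (Subgroup.zpowers (φ t'))).Prime := ⟨by rw [Nat.card_zpowers, htord]; exact hp.out⟩
      rcases (B.subgroupOf (Subgroup.zpowers (φ t'))).eq_bot_or_eq_top_of_prime_card with h | h
      · exact hne' (Subgroup.subgroupOf_eq_bot.1 h).eq_bot
      · exact htB' (Subgroup.subgroupOf_eq_top.1 h (Subgroup.mem_zpowers _))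
    haveI := hBn
    have hmul : (B : Set W) * (Subgroup.zpowers (φ t') : Set W) = Set.univ := by
      rw [← Subgroup.normal_mul, Set.eq_univ_iff_forall]
      intro y
      obtain ⟨a, rfl⟩ := hφ y
      have hle : T ≤ ((B ⊔ Subgroup.zpowers (φ t')).comap φ).map T.subtype := by
        refine sup_le (fun b hb => ?_) (Subgroup.zpowers_le.2 ?_)
        · exact ⟨⟨b, Subgroup.mem_sup_left hb⟩, Subgroup.mem_sup_left ⟨_, Subgroup.mem_subgroupOf.2 hb, rfl⟩, rfl⟩
        · exact ⟨t', Subgroup.mem_sup_right (Subgroup.mem_zpowers _), rfl⟩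
      obtain ⟨a', ha', haa⟩ := hle a.2
      rw [show a' = a from Subtype.ext haa] at ha'
      exact ha'
    rw [← (Subgroup.isComplement'_of_disjoint_and_mul_eq_univ hdisj hmul).card_mul_card, hcardB, Nat.card_zpowers,
      htord, pow_succ]
  · set n₀ : Additive V := (D ^ (p - 1)) a₀
    set g₀ : H := ((Additive.toMul n₀ : V) : H)
    have hp1 : p - 1 < p := by have := hp.out.pos; omega
    have hg₀ : g₀ ∈ B₀ := (hmem _).2 ⟨n₀, Submodule.subset_span ⟨⟨p - 1, hp1⟩, rfl⟩, rfl⟩
    let g' : T := ⟨g₀, Subgroup.mem_sup_left hg₀⟩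
    have hg1 : g₀ ≠ 1 := fun h => htop (Additive.toMul.injective (Subtype.ext h))
    have heq : B ⊓ Subgroup.centralizer ({φ t'} : Set W) = (Subgroup.zpowers g').map φ := by
      refine le_antisymm ?_ ?_
      · rintro y ⟨⟨a, ha, rfl⟩, hy⟩
        have hy' := Subgroup.mem_centralizer_singleton_iff.1 hy
        have ha' := Subgroup.mem_subgroupOf.1 ha
        have hk : (t : H) * (a : H) * t⁻¹ * (a : H)⁻¹ ∈ Subgroup.zpowers (t ^ p) :=
          (hker (t' * a * t'⁻¹ * a⁻¹)).1 (by
            simp only [map_mul, map_inv]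
            rw [← hy', mul_inv_cancel_right, mul_inv_cancel])
        have h1 := hBZ _ (B₀.mul_mem (htn _ ha') (B₀.inv_mem ha')) hk
        rw [mul_inv_eq_one, htconj _ (hB₀V ha'), mul_inv_eq_iff_eq_mul] at h1
        obtain ⟨w, hw, hwa⟩ := (hmem _).1 ha'
        obtain ⟨c, rfl⟩ := hline w hw ((hfix w).2 (by rw [hwa]; exact h1))
        refine ⟨g' ^ c.val, Subgroup.pow_mem _ (Subgroup.mem_zpowers g') _, congrArg φ (Subtype.ext ?_)⟩
        rw [SubmonoidClass.coe_pow]
        show g₀ ^ c.val = (a : H)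
        rw [← hwa, ← ZMod.natCast_zmod_val c, Nat.cast_smul_eq_nsmul, ZMod.natCast_zmod_val, toMul_nsmul,
          SubmonoidClass.coe_pow]
      · rw [MonoidHom.map_zpowers, Subgroup.zpowers_le]
        refine ⟨⟨g', Subgroup.mem_subgroupOf.2 hg₀, rfl⟩, Subgroup.mem_centralizer_singleton_iff.2 ?_⟩
        rw [← map_mul, ← map_mul]
        refine congrArg φ (Subtype.ext ?_)
        show g₀ * t = t * g₀
        have h1 : D n₀ = 0 := by
          rw [← Module.End.mul_apply, ← pow_succ']
          exact hvan _ (by omega) _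
        have h2 := (hfix n₀).1 h1
        have h3 := htconj g₀ (hB₀V hg₀)
        rw [h2, mul_inv_cancel_right, mul_inv_eq_iff_eq_mul] at h3
        exact h3.symm
    rw [heq, hcardmap _ (Subgroup.zpowers_le.2 (Subgroup.mem_subgroupOf.2 hg₀)), Nat.card_zpowers]
    refine orderOf_eq_prime (Subtype.ext ?_) fun h => hg1 (congrArg Subtype.val h)
    rw [SubmonoidClass.coe_pow, OneMemClass.coe_one]
    exact congrArg Subtype.val (hexp (Additive.toMul n₀))

end CfsgLib.HallHigmanB
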